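import Cfsg.Agent.Mon.Fong

/-! Rational representations of degree `23`: Schur's lemma, Fourier formula, elements of order `23`. -/

set_option autoImplicit false
set_option linter.style.haveILetI false

namespace CF.Feit

open Module Polynomial

variable {G V : Type*} [Group G] [AddCommGroup V] [Module ℚ V]

/-- An irreducible orthogonal rational representation of degree `23`. -/
structure Rp (ρ : G →* End ℚ V) (β : LinearMap.BilinForm ℚ V) : Prop where
  fr : finrank ℚ V = 23
  irr : ∀ W : Submodule ℚ V, (∀ g, ∀ w ∈ W, ρ g w ∈ W) → W = ⊥ ∨ W = ⊤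
  symm : ∀ y z, β y z = β z y
  pos : ∀ y, y ≠ 0 → 0 < β y y
  inv : ∀ g y z, β (ρ g y) (ρ g z) = β y z

theorem deg_le [FiniteDimensional ℚ V] (f : End ℚ V) {q : ℚ[X]} (hq : Irreducible q)
    (U : Submodule ℚ V) (hU : ∀ y ∈ U, f y ∈ U) {y : V} (hy : y ∈ U) (hy0 : y ≠ 0)
    (h : aeval f q y = 0) : q.natDegree ≤ finrank ℚ U := by
  let φ : degreeLT ℚ q.natDegree →ₗ[ℚ] U :=
    { toFun := fun a => ⟨aeval f a.1 y, aeval_apply_smul_mem_of_le_comap hy a.1 f hU⟩
      map_add' := fun a b => Subtype.ext (by simp)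
      map_smul' := fun a b => Subtype.ext (by simp) }
  have hi : Function.Injective φ := by
    refine (injective_iff_map_eq_zero φ).2 fun a ha => ?_
    have h1 : aeval f a.1 y = 0 := congrArg Subtype.val ha
    by_contra h0
    have h2 : a.1 ≠ 0 := fun e => h0 (Subtype.ext e)
    have h3 : ¬ q ∣ a.1 := fun hd => by
      have := degree_le_of_dvd hd h2
      have h4 := mem_degreeLT.1 a.2
      rw [← degree_eq_natDegree hq.ne_zero] at h4
      exact absurd (this.trans_lt h4) (lt_irrefl _)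
    obtain ⟨s, t, e⟩ := (hq.coprime_iff_not_dvd.2 h3)
    have := congrArg (fun r => aeval f r y) e
    simp only [map_add, map_mul, LinearMap.add_apply, End.mul_apply, h, h1, map_zero, map_one,
      End.one_apply, add_zero] at this
    exact hy0 this.symm
  have := LinearMap.finrank_le_finrank_of_injective hi
  rwa [(degreeLTEquiv ℚ q.natDegree).finrank_eq, Module.finrank_fin_fun] at this

theorem prime_deg_le [FiniteDimensional ℚ V] (f : End ℚ V) {p : ℕ} (hp : p.Prime) (k : ℕ)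
    (U : Submodule ℚ V) (hU : ∀ y ∈ U, f y ∈ U) {y : V} (hy : y ∈ U) (hy0 : y ≠ 0)
    (h : ∑ i ∈ Finset.range p, ((f ^ p ^ k) ^ i) y = 0) : p ^ k * (p - 1) ≤ finrank ℚ U := by
  haveI := Fact.mk hp
  have := deg_le f (cyclotomic.irreducible_rat (pow_pos hp.pos (k + 1))) U hU hy hy0 (by
    rw [cyclotomic_prime_pow_eq_geom_sum hp]
    simpa [map_sum, LinearMap.sum_apply] using h)
  rwa [natDegree_cyclotomic, Nat.totient_prime_pow_succ hp] at this

namespace Rp
variable {ρ : G →* End ℚ V} {β : LinearMap.BilinForm ℚ V} (h : Rp ρ β)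
include h

theorem fd : FiniteDimensional ℚ V := Module.finite_of_finrank_pos (by rw [h.fr]; norm_num)

theorem nonneg (y : V) : 0 ≤ β y y := by
  rcases eq_or_ne y 0 with rfl | h0
  · simp
  · exact (h.pos y h0).le

theorem eq_zero {y : V} (hy : β y y = 0) : y = 0 := by
  by_contra h0
  exact (h.pos y h0).ne' hy

theorem nondeg : β.Nondegenerate :=
  ⟨fun y hy => h.eq_zero (hy y), fun y hy => h.eq_zero (hy y)⟩

theorem smul {c : ℚ} (hc : 0 < c) : Rp ρ (c • β) where
  fr := h.fr
  irr := h.irr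
  symm y z := by simp [h.symm y z]
  pos y hy := by simpa using mul_pos hc (h.pos y hy)
  inv g y z := by simp [h.inv]

theorem inv' (g : G) (y z : V) : β (ρ g y) z = β y (ρ g⁻¹ z) := by
  rw [← h.inv g y, ← End.mul_apply, ← map_mul, mul_inv_cancel, map_one, End.one_apply]

theorem schur {f : End ℚ V} (hf : ∀ g, ρ g * f = f * ρ g) : f = 0 ∨ Function.Injective f := by
  rcases h.irr (LinearMap.ker f) (fun g w hw => by
    rw [LinearMap.mem_ker, ← End.mul_apply, ← hf, End.mul_apply, LinearMap.mem_ker.1 hw, map_zero]) with e | e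
  · exact Or.inr (LinearMap.ker_eq_bot.1 e)
  · exact Or.inl (LinearMap.ker_eq_top.1 e)

theorem adj {f : End ℚ V} (hf : ∀ g, ρ g * f = f * ρ g) (y z : V) : β (f y) z = β y (f z) := by
  haveI := h.fd
  let A : LinearMap.BilinForm ℚ V := β.compLeft f - β.compRight f
  have hA : ∀ y z, A y z = β (f y) z - β y (f z) := fun y z => rfl
  have h1 : A.IsAlt := fun y => by rw [hA, h.symm, sub_self]
  have h2 := CF.Fong.even_add_ker h1
  rcases h.irr (LinearMap.ker A) (fun g w hw => by
    refine LinearMap.ext fun z => ?_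
    have := LinearMap.congr_fun (LinearMap.mem_ker.1 hw) (ρ g⁻¹ z)
    rw [hA] at this ⊢
    rw [← End.mul_apply f, ← hf, End.mul_apply, h.inv', h.inv', ← End.mul_apply (ρ g⁻¹), hf, End.mul_apply]
    exact this) with e | e
  · rw [e, h.fr, finrank_bot] at h2
    exact absurd h2 (by decide)
  · exact sub_eq_zero.1 (LinearMap.congr_fun (LinearMap.congr_fun (LinearMap.ker_eq_top.1 e) y) z)

theorem not_line (w : V) (hw : w ≠ 0) : ∃ g, ρ g w ∉ Submodule.span ℚ {w} := by
  by_contra hc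
  push Not at hc
  rcases h.irr (Submodule.span ℚ {w}) (fun g y hy => by
    obtain ⟨a, rfl⟩ := Submodule.mem_span_singleton.1 hy
    rw [map_smul]; exact Submodule.smul_mem _ _ (hc g)) with e | e
  · exact hw (Submodule.span_singleton_eq_bot.1 e)
  · have := finrank_span_singleton (K := ℚ) hw
    rw [e, finrank_top, h.fr] at this
    omega

theorem scalar {f : End ℚ V} (hf : ∀ g, ρ g * f = f * ρ g) : ∃ c : ℚ, f = c • (1 : End ℚ V) := by
  haveI := h.fd
  let K : Subalgebra ℚ (End ℚ V) := Subalgebra.centralizer ℚ (Set.range ρ)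
  have hK : ∀ k : End ℚ V, k ∈ K ↔ ∀ g, ρ g * k = k * ρ g := fun k => by
    simp [K, Subalgebra.mem_centralizer_iff]
  haveI : Nontrivial V := Module.nontrivial_of_finrank_pos (R := ℚ) (by rw [h.fr]; norm_num)
  haveI : NoZeroDivisors K := ⟨fun {a b} e => by
    rcases h.schur ((hK _).1 a.2) with e1 | e1
    · exact Or.inl (Subtype.ext e1)
    · refine Or.inr (Subtype.ext (LinearMap.ext fun y => e1 ?_))
      have := LinearMap.congr_fun (congrArg Subtype.val e) y
      simpa using this⟩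
  haveI : IsDomain K := NoZeroDivisors.to_isDomain K
  letI := divisionRingOfFiniteDimensional ℚ K
  have ht := Module.finrank_mul_finrank ℚ K V
  rw [h.fr] at ht
  rcases (Nat.dvd_prime (by norm_num : Nat.Prime 23)).1 (Dvd.intro _ ht) with e | e
  · obtain ⟨c, hc⟩ := (finrank_eq_one_iff_of_nonzero' (1 : K) one_ne_zero).1 e ⟨f, (hK f).2 hf⟩
    exact ⟨c, (congrArg Subtype.val hc).symm⟩
  exfalso
  have e1 : finrank K V = 1 := by rw [e] at ht; omega
  obtain ⟨w, hw⟩ := exists_ne (0 : V)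
  have hs := (finrank_eq_one_iff_of_nonzero' w hw).1 e1
  have hcomm : ∀ a b : K, ∀ y, a.1 (b.1 y) = b.1 (a.1 y) := fun a b y => by
    refine sub_eq_zero.1 (h.nondeg.1 _ fun z => ?_)
    have := h.adj ((hK _).1 (a * b).2) y z
    simp only [MulMemClass.coe_mul, End.mul_apply] at this
    rw [map_sub, LinearMap.sub_apply, this, h.adj ((hK _).1 b.2), h.adj ((hK _).1 a.2), sub_self]
  obtain ⟨g, hg⟩ := h.not_line w hw
  obtain ⟨k, hk⟩ := hs (ρ g w)
  have hk' : k.1 w = ρ g w := hk
  have e2 : ∀ y, ρ g y = k.1 y := fun y => by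
    obtain ⟨a, rfl⟩ := hs y
    show ρ g (a.1 w) = k.1 (a.1 w)
    rw [hcomm k a, hk', ← End.mul_apply, (hK _).1 a.2, End.mul_apply]
  have e3 : (k - 1) * (k + 1) = 0 := by
    refine Subtype.ext (LinearMap.ext fun y => h.nondeg.1 _ fun z => ?_)
    have e4 : ((k - 1) * (k + 1)).1 y = k.1 (k.1 y) - y := by simp only [MulMemClass.coe_mul, End.mul_apply, AddMemClass.coe_add, AddSubgroupClass.coe_sub, OneMemClass.coe_one, LinearMap.add_apply, LinearMap.sub_apply, End.one_apply, map_add]; abel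
    rw [e4, map_sub, LinearMap.sub_apply, h.adj ((hK _).1 k.2), ← e2, ← e2, h.inv, sub_self]
  apply hg
  rcases mul_eq_zero.1 e3 with e4 | e4
  · rw [e2, sub_eq_zero.1 e4]; exact Submodule.mem_span_singleton_self w
  · rw [e2, eq_neg_of_add_eq_zero_left e4]
    exact Submodule.neg_mem _ (Submodule.mem_span_singleton_self w)

/-- The Fourier formula. -/
theorem fourier [Fintype G] (y y' z : V) :
    ∑ g, β (ρ g y) z • ρ g y' = ((Fintype.card G : ℚ) / 23 * β y y') • z := by
  haveI := h.fd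
  let F : End ℚ V := ∑ g, (β (ρ g y)).smulRight (ρ g y')
  have hF : ∀ z, F z = ∑ g, β (ρ g y) z • ρ g y' := fun z => by simp [F, LinearMap.sum_apply]
  obtain ⟨c, hc⟩ := h.scalar (f := F) fun k => LinearMap.ext fun z => by
    rw [End.mul_apply, End.mul_apply, hF, hF, map_sum]
    refine Fintype.sum_equiv (Equiv.mulLeft k) _ _ fun g => ?_
    simp only [Equiv.coe_mulLeft, map_mul, End.mul_apply, map_smul, h.inv]
  have ht := congrArg (LinearMap.trace ℚ V) hc
  simp only [F, map_sum, LinearMap.trace_smulRight, h.inv, map_smul, LinearMap.trace_one, h.fr,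
    Finset.sum_const, Finset.card_univ, nsmul_eq_mul, smul_eq_mul] at ht
  rw [← hF, hc, show (Fintype.card G : ℚ) / 23 * β y y' = c by push_cast at ht; linarith]
  rfl

end Rp

/-- Powers of an element of order `23`. -/
def XX (ρ : G →* End ℚ V) (x : G) (i : ZMod 23) : End ℚ V := ρ (x ^ i.val)

/-- The norm element. -/
def TT (ρ : G →* End ℚ V) (x : G) : End ℚ V := ∑ i, XX ρ x i

instance fact23 : Fact (Nat.Prime 23) := ⟨by norm_num⟩

section xx
variable {ρ : G →* End ℚ V} {x : G}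

theorem XX_zero (y : V) : XX ρ x 0 y = y := by simp [XX]

theorem XX_one : XX ρ x 1 = ρ x := by
  rw [XX, show (1 : ZMod 23).val = 1 from rfl, pow_one]

theorem TT_apply (y : V) : TT ρ x y = ∑ i, XX ρ x i y := by simp [TT, LinearMap.sum_apply]

theorem TT_range (y : V) : TT ρ x y = ∑ i ∈ Finset.range 23, (ρ x ^ i) y := by
  rw [TT_apply, Finset.sum_range]
  exact Finset.sum_congr rfl fun i _ => by rw [XX, map_pow]; rfl

theorem XX_fix {v : V} (hv : ρ x v = v) (i : ZMod 23) : XX ρ x i v = v := by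
  rw [XX, map_pow]
  induction i.val with
  | zero => rfl
  | succ n ih => rw [pow_succ, End.mul_apply, hv, ih]

theorem TT_fix {v : V} (hv : ρ x v = v) : TT ρ x v = (23 : ℚ) • v := by
  rw [TT_apply]
  simp only [XX_fix hv, Finset.sum_const, Finset.card_univ, ZMod.card]
  exact (Nat.cast_smul_eq_nsmul ℚ 23 v).symm

variable (hx : x ^ 23 = 1)
include hx

theorem XX_nat (n : ℕ) : XX ρ x n = ρ (x ^ n) := by
  rw [XX, ZMod.val_natCast, ← pow_eq_pow_mod n hx]

theorem XX_add (i j : ZMod 23) (y : V) : XX ρ x (i + j) y = XX ρ x i (XX ρ x j y) := by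
  rw [← End.mul_apply, XX, XX, XX, ← map_mul, ← pow_add, ZMod.val_add, ← pow_eq_pow_mod _ hx]

theorem XX_TT (j : ZMod 23) (y : V) : XX ρ x j (TT ρ x y) = TT ρ x y := by
  rw [TT_apply, map_sum]
  exact Fintype.sum_equiv (Equiv.addLeft j) _ _ fun i => (XX_add hx j i y).symm

theorem TT_XX (j : ZMod 23) (y : V) : TT ρ x (XX ρ x j y) = TT ρ x y := by
  rw [TT_apply, TT_apply]
  exact Fintype.sum_equiv (Equiv.addRight j) _ _ fun i => (XX_add hx i j y).symm

theorem x_TT (y : V) : ρ x (TT ρ x y) = TT ρ x y := by rw [← XX_one, XX_TT hx]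

theorem TT_x (y : V) : TT ρ x (ρ x y) = TT ρ x y := by rw [← XX_one, TT_XX hx]

theorem fix_of_XX {i : ZMod 23} (hi : i ≠ 0) {y : V} (h : XX ρ x i y = y) : ρ x y = y := by
  have : ∀ n : ℕ, XX ρ x (n * i) y = y := fun n => by
    induction n with
    | zero => simp [XX_zero]
    | succ n ih => rw [Nat.cast_succ, add_mul, one_mul, XX_add hx, h, ih]
  have := this (i⁻¹).val
  rwa [ZMod.natCast_zmod_val, inv_mul_cancel₀ hi, XX_one] at this

theorem XX_ne {y : V} (hy : ρ x y ≠ y) {i j : ZMod 23}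
    (h : XX ρ x i y = XX ρ x j y ∨ XX ρ x i y = -XX ρ x j y) : i = j := by
  by_contra hc
  have hi : -j + i ≠ 0 := fun e => hc (by linear_combination e)
  rcases h with h | h
  · refine hy (fix_of_XX hx hi ?_)
    rw [XX_add hx, h, ← XX_add hx, neg_add_cancel, XX_zero]
  · have h1 : XX ρ x (-j + i) y = -y := by
      rw [XX_add hx, h, map_neg, ← XX_add hx, neg_add_cancel, XX_zero]
    refine hy (fix_of_XX hx (i := (-j + i) + (-j + i)) (fun e => hi ?_) ?_)
    · rw [← two_mul] at e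
      exact (mul_eq_zero.1 e).resolve_left (by decide)
    · rw [XX_add hx, h1, map_neg, h1, neg_neg]

variable {β : LinearMap.BilinForm ℚ V} (h : Rp ρ β)
include h

omit hx in
theorem Rp.XX_inv (i : ZMod 23) (y z : V) : β (XX ρ x i y) (XX ρ x i z) = β y z := h.inv _ y z

theorem Rp.XX_sub (i j : ZMod 23) (y z : V) :
    β (XX ρ x i y) (XX ρ x j z) = β y (XX ρ x (j - i) z) := by
  rw [← h.XX_inv (x := x) i y, ← XX_add hx, add_sub_cancel]

theorem Rp.XX_neg (i : ZMod 23) (y : V) : β y (XX ρ x (-i) y) = β y (XX ρ x i y) := by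
  rw [h.symm y (XX ρ x i y), ← zero_sub, ← h.XX_sub hx, XX_zero]

theorem Rp.TT_b {v : V} (hv : ρ x v = v) (y : V) : β (TT ρ x y) v = 23 * β y v := by
  rw [TT_apply, map_sum, LinearMap.sum_apply]
  have : ∀ i, β (XX ρ x i y) v = β y v := fun i => by
    conv_lhs => rw [← XX_fix hv i, h.XX_inv]
  simp [this]

omit hx in
theorem Rp.le_dim (U : Submodule ℚ V) (hU : ∀ y ∈ U, ρ x y ∈ U) {y : V} (hy : y ∈ U) (h0 : y ≠ 0)
    (hT : TT ρ x y = 0) : 22 ≤ finrank ℚ U := by
  haveI := h.fd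
  have := prime_deg_le (ρ x) (p := 23) (by norm_num) 0 U hU hy h0 (by simpa [TT_range] using hT)
  simpa using this

theorem Rp.alt (y : V) : β (XX ρ x 12 y - XX ρ x 11 y) y = 0 := by
  rw [map_sub, LinearMap.sub_apply, h.symm, h.symm (XX ρ x 11 y), ← h.XX_neg hx 12, sub_eq_zero]
  rfl

omit h in
theorem fix_of_s {y : V} (e : XX ρ x 12 y = XX ρ x 11 y) : ρ x y = y := by
  have := congrArg (XX ρ x 12) e
  rwa [← XX_add hx, ← XX_add hx, show (12 + 12 : ZMod 23) = 1 from rfl,
    show (12 + 11 : ZMod 23) = 0 from rfl, XX_one, XX_zero] at this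

theorem Rp.exists_fix : ∃ v : V, v ≠ 0 ∧ ρ x v = v := by
  haveI := h.fd
  let A : LinearMap.BilinForm ℚ V := β.compLeft (XX ρ x 12 - XX ρ x 11)
  have h1 : A.IsAlt := fun y => h.alt hx y
  have h2 := CF.Fong.even_add_ker h1
  have h3 : LinearMap.ker A ≠ ⊥ := fun e => by
    rw [e, h.fr, finrank_bot] at h2
    exact absurd h2 (by decide)
  obtain ⟨v, hv, h0⟩ := Submodule.exists_mem_ne_zero_of_ne_bot h3
  refine ⟨v, h0, fix_of_s hx (sub_eq_zero.1 (h.nondeg.1 _ fun z => ?_))⟩
  exact LinearMap.congr_fun (LinearMap.mem_ker.1 hv) z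

theorem Rp.perp {v : V} (h0 : v ≠ 0) (hv : ρ x v = v) {w : V} (hw : w ≠ 0) (hT : TT ρ x w = 0)
    {z : V} (h1 : β z v = 0) (h2 : ∀ i, β z (XX ρ x i w) = 0) : z = 0 := by
  haveI := h.fd
  let U := Submodule.span ℚ (Set.range fun i => XX ρ x i w)
  have hU : ∀ y ∈ U, ρ x y ∈ U := fun y hy => by
    refine (Submodule.span_le (p := U.comap (ρ x))).2 ?_ hy
    rintro _ ⟨i, rfl⟩
    exact Submodule.subset_span ⟨1 + i, by simp only [XX_add hx, XX_one]⟩
  have d1 := h.le_dim U hU (Submodule.subset_span ⟨0, XX_zero w⟩) hw hT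
  have hk : U ≤ LinearMap.ker (TT ρ x) := Submodule.span_le.2 (by
    rintro _ ⟨i, rfl⟩
    exact (TT_XX hx i w).trans hT)
  have d2 : U ⊓ Submodule.span ℚ {v} = ⊥ := by
    refine eq_bot_iff.2 fun y ⟨hy1, hy2⟩ => ?_
    obtain ⟨a, rfl⟩ := Submodule.mem_span_singleton.1 hy2
    have := LinearMap.mem_ker.1 (hk hy1)
    rw [map_smul, TT_fix hv, smul_comm] at this
    exact (smul_eq_zero.1 this).resolve_left (by norm_num)
  have d3 := Submodule.finrank_sup_add_finrank_inf_eq U (Submodule.span ℚ {v})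
  rw [d2, finrank_bot, finrank_span_singleton h0] at d3
  have d4 : U ⊔ Submodule.span ℚ {v} = ⊤ :=
    Submodule.eq_top_of_finrank_eq (le_antisymm (Submodule.finrank_le _) (by rw [h.fr]; omega))
  have d5 : U ⊔ Submodule.span ℚ {v} ≤ LinearMap.ker (β z) :=
    sup_le (Submodule.span_le.2 (by rintro _ ⟨i, rfl⟩; exact h2 i))
      (Submodule.span_le.2 (by rintro _ rfl; exact h1))
  exact h.eq_zero (d5 (d4 ▸ Submodule.mem_top))

theorem Rp.fix_mul (hx1 : ρ x ≠ 1) {v : V} (h0 : v ≠ 0) (hv : ρ x v = v) {y : V} (hy : ρ x y = y) :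
    y = (β y v / β v v) • v := by
  obtain ⟨a, ha⟩ : ∃ a, ρ x a ≠ a := by
    by_contra hc
    push Not at hc
    exact hx1 (LinearMap.ext hc)
  have hp := h.pos v h0
  have hT : TT ρ x (ρ x a - a) = 0 := by rw [map_sub, TT_x hx, sub_self]
  refine sub_eq_zero.1 (h.perp hx h0 hv (sub_ne_zero.2 ha) hT ?_ fun i => ?_)
  · rw [map_sub, map_smul, LinearMap.sub_apply, LinearMap.smul_apply, smul_eq_mul]
    field_simp; ring
  · have hz : ρ x (y - (β y v / β v v) • v) = y - (β y v / β v v) • v := by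
      rw [map_sub, map_smul, hy, hv]
    have := h.TT_b hx hz (XX ρ x i (ρ x a - a))
    rw [TT_XX hx, hT, map_zero, LinearMap.zero_apply] at this
    rw [h.symm]; linarith

theorem Rp.TT_eq (hx1 : ρ x ≠ 1) {v : V} (h0 : v ≠ 0) (hv : ρ x v = v) (y : V) :
    TT ρ x y = (23 * β y v / β v v) • v := by
  rw [← h.TT_b hx hv]; exact h.fix_mul hx hx1 h0 hv (x_TT hx y)

end xx

namespace Rp
variable {ρ : G →* End ℚ V} {β : LinearMap.BilinForm ℚ V} (h : Rp ρ β) (hi : Function.Injective ρ)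
include h hi

theorem pow_le {g : G} {p : ℕ} (hp : p.Prime) (k : ℕ) (h1 : g ^ p ^ k ≠ 1) (h2 : (g ^ p ^ k) ^ p = 1) :
    p ^ k * (p - 1) ≤ 23 := by
  haveI := h.fd
  obtain ⟨a, ha⟩ : ∃ a, ρ (g ^ p ^ k) a ≠ a := by
    by_contra hc
    push Not at hc
    exact h1 (hi ((LinearMap.ext hc).trans (map_one ρ).symm))
  have := prime_deg_le (ρ g) hp k ⊤ (fun _ _ => trivial) Submodule.mem_top (sub_ne_zero.2 ha) (by
    rw [← map_pow, ← LinearMap.sum_apply]
    have := congrArg (fun f : End ℚ V => f a) (geom_sum_mul (ρ (g ^ p ^ k)) p)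
    simp only [End.mul_apply, LinearMap.sub_apply, End.one_apply] at this
    rw [this, ← map_pow, h2, map_one, End.one_apply, sub_self])
  rwa [finrank_top, h.fr] at this

theorem prime_le [Finite G] {p : ℕ} (hp : p.Prime) (hd : p ∣ Nat.card G) : p ≤ 23 := by
  haveI := Fact.mk hp
  obtain ⟨g, hg⟩ := exists_prime_orderOf_dvd_card' p hd
  have := h.pow_le hi (g := g) hp 0 (by
    rw [pow_zero, pow_one]; rintro rfl; rw [orderOf_one] at hg; exact hp.one_lt.ne hg)
    (by rw [pow_zero, pow_one, ← hg, pow_orderOf_eq_one])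
  have h24 : p ≠ 24 := by rintro rfl; exact absurd hp (by norm_num)
  rw [pow_zero, one_mul] at this
  omega

theorem not_sq [Finite G] : ¬ 23 ^ 2 ∣ Nat.card G := by
  intro hd
  obtain ⟨P, hP⟩ := Sylow.exists_subgroup_card_pow_prime 23 hd
  have hc : ∀ a b : P, a * b = b * a :=
    (IsPGroup.isMulCommutative_of_card_eq_prime_sq hP).is_comm.comm
  have he : ∀ g ∈ P, g ^ 23 = 1 := fun g hg => by
    by_contra hne
    have := h.pow_le hi (g := g) (p := 23) (by norm_num) 1 (by simpa using hne) (by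
      have := congrArg Subtype.val (pow_card_eq_one' (x := (⟨g, hg⟩ : P)))
      rw [hP] at this
      rw [← pow_mul]; exact this)
    norm_num at this
  have hn : ∀ g : G, g ≠ 1 → ρ g ≠ 1 := fun g hg e => hg (hi (e.trans (map_one ρ).symm))
  haveI : Nontrivial P := Finite.one_lt_card_iff_nontrivial.1 (by rw [hP]; norm_num)
  obtain ⟨x, hx1⟩ := exists_ne (1 : P)
  have hx := he x x.2
  obtain ⟨y, hy⟩ : ∃ y : P, y ∉ Subgroup.zpowers x := by
    by_contra hc
    push Not at hc
    have h1 : Nat.card (Subgroup.zpowers x) = Nat.card P := by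
      rw [(Subgroup.eq_top_iff' _).2 hc, Subgroup.card_top]
    have h2 : orderOf x ∣ 23 := orderOf_dvd_of_pow_eq_one (Subtype.ext hx)
    rw [Nat.card_zpowers, hP] at h1
    rw [h1] at h2
    norm_num at h2
  have hx1' : ρ x ≠ 1 := hn _ fun e => hx1 (Subtype.ext e)
  obtain ⟨v, v0, hv⟩ := h.exists_fix hx
  have hxy : Commute (x : G) y := congrArg Subtype.val (hc x y)
  have hyv : ρ y v = v := by
    have e := h.fix_mul hx hx1' v0 hv (y := ρ y v) (by
      rw [← End.mul_apply, ← map_mul, hxy.eq, map_mul, End.mul_apply, hv])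
    generalize β (ρ y v) v / β v v = q at e
    have e2 : ∀ n : ℕ, ρ (y ^ n) v = q ^ n • v := fun n => by
      induction n with
      | zero => simp
      | succ n ih => rw [pow_succ, map_mul, End.mul_apply, e, map_smul, ih, smul_smul, pow_succ']
    have e3 := e2 23
    rw [he y y.2, map_one, End.one_apply] at e3
    have e4 : q ^ 23 = 1 := by
      have : (q ^ 23 - 1) • v = 0 := by rw [sub_smul, ← e3, one_smul, sub_self]
      exact sub_eq_zero.1 ((smul_eq_zero.1 this).resolve_right v0)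
    rw [e, (Odd.pow_inj (by decide : Odd 23)).1 (e4.trans (one_pow 23).symm), one_smul]
  obtain ⟨a, ha⟩ : ∃ a, ρ x a ≠ a := by
    by_contra hc
    push Not at hc
    exact hx1' (LinearMap.ext hc)
  set w := ρ x a - a with hw
  have hT : TT ρ x w = 0 := by rw [hw, map_sub, TT_x hx, sub_self]
  have hwv : β w v = 0 := by
    have := h.TT_b hx hv w
    rw [hT, map_zero, LinearMap.zero_apply] at this
    linarith
  have h1 : ∀ j : ZMod 23, TT ρ ((x : G) ^ j.val * y) w = 0 := fun j => by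
    rw [h.TT_eq (he _ (P.mul_mem (P.pow_mem x.2 _) y.2)) (hn _ fun e => hy ?_) v0 (by
      rw [map_mul, End.mul_apply, hyv]; exact XX_fix hv j), hwv]
    · simp
    · have : y = (x ^ j.val)⁻¹ := Subtype.ext (eq_inv_of_mul_eq_one_right e)
      rw [this]
      exact Subgroup.inv_mem _ (Subgroup.pow_mem _ (Subgroup.mem_zpowers x) _)
  have h2 : ∀ i j : ZMod 23, XX ρ ((x : G) ^ j.val * y) i w = XX ρ (y : G) i (XX ρ (x : G) (j * i) w) :=
    fun i j => by
      rw [XX, ((hxy.pow_left _).mul_pow), ← pow_mul, ((hxy.pow_pow _ _).eq), map_mul, End.mul_apply,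
        ← XX_nat hx, Nat.cast_mul, ZMod.natCast_zmod_val, ZMod.natCast_zmod_val]
      rfl
  have h3 : ∑ j : ZMod 23, TT ρ ((x : G) ^ j.val * y) w = (23 : ℚ) • w := by
    simp only [TT_apply, h2]
    rw [Finset.sum_comm, Finset.sum_eq_single 0]
    · simp only [mul_zero, XX_zero, Finset.sum_const, Finset.card_univ, ZMod.card]
      exact (Nat.cast_smul_eq_nsmul ℚ 23 w).symm
    · intro i _ hi0
      rw [← map_sum, Fintype.sum_equiv (Equiv.mulRight₀ i hi0) (fun j => XX ρ (x : G) (j * i) w)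
        (fun j => XX ρ (x : G) j w) fun _ => rfl,
        ← TT_apply, hT, map_zero]
    · simp
  simp only [h1, Finset.sum_const_zero] at h3
  exact sub_ne_zero.2 ha ((smul_eq_zero.1 h3.symm).resolve_left (by norm_num))

end Rp

end CF.Feit
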