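import Cfsg.Agent.Feit.A

/-! Invariant lattices: duality, reduction modulo a prime, Higman's criterion. -/

set_option autoImplicit false
set_option linter.style.haveILetI false

namespace CF.Feit

open Module TensorProduct

/-- Integral rational numbers. -/
def IZ (q : ℚ) : Prop := ∃ n : ℤ, q = n

theorem IZ.add {a b : ℚ} (h : IZ a) (k : IZ b) : IZ (a + b) := by
  obtain ⟨m, rfl⟩ := h; obtain ⟨n, rfl⟩ := k; exact ⟨m + n, by simp⟩

theorem IZ.sub {a b : ℚ} (h : IZ a) (k : IZ b) : IZ (a - b) := by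
  obtain ⟨m, rfl⟩ := h; obtain ⟨n, rfl⟩ := k; exact ⟨m - n, by simp⟩

theorem IZ.mul {a b : ℚ} (h : IZ a) (k : IZ b) : IZ (a * b) := by
  obtain ⟨m, rfl⟩ := h; obtain ⟨n, rfl⟩ := k; exact ⟨m * n, by simp⟩

theorem IZ.neg {a : ℚ} (h : IZ a) : IZ (-a) := by
  obtain ⟨m, rfl⟩ := h; exact ⟨-m, by simp⟩

theorem IZ.int (n : ℤ) : IZ n := ⟨n, rfl⟩

theorem IZ.nat (n : ℕ) : IZ n := ⟨n, by simp⟩

theorem IZ.sum {ι : Type*} (s : Finset ι) {f : ι → ℚ} (h : ∀ i ∈ s, IZ (f i)) : IZ (∑ i ∈ s, f i) :=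
  Finset.sum_induction f IZ (fun _ _ => IZ.add) ⟨0, by simp⟩ h

theorem IZ.congr {a b : ℚ} (h : IZ a) (e : a = b) : IZ b := e ▸ h

theorem IZ.of_cop {q : ℚ} {a b : ℤ} (hc : IsCoprime a b) (h1 : IZ (a * q)) (h2 : IZ (b * q)) : IZ q := by
  obtain ⟨s, t, e⟩ := hc
  have : (s : ℚ) * a + t * b = 1 := by exact_mod_cast e
  exact (((IZ.int s).mul h1).add ((IZ.int t).mul h2)).congr (by linear_combination q * this)

section modp
variable {L : Type*} [AddCommGroup L] {p : ℕ} [Fact p.Prime]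

theorem exists_redp (u : ZMod p ⊗[ℤ] L) : ∃ x : L, u = 1 ⊗ₜ x := by
  induction u using TensorProduct.induction_on with
  | zero => exact ⟨0, by simp⟩
  | tmul a x =>
    obtain ⟨n, rfl⟩ := ZMod.intCast_surjective a
    exact ⟨n • x, by rw [← smul_tmul]; simp⟩
  | add u v hu hv =>
    obtain ⟨x, rfl⟩ := hu
    obtain ⟨y, rfl⟩ := hv
    exact ⟨x + y, by rw [tmul_add]⟩

variable [Module.Free ℤ L] [Module.Finite ℤ L]

theorem redp_eq_zero {x : L} :
    ((1 : ZMod p) ⊗ₜ[ℤ] x : ZMod p ⊗[ℤ] L) = 0 ↔ ∃ y, x = (p : ℤ) • y := by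
  refine ⟨fun h => ?_, by rintro ⟨y, rfl⟩; rw [← smul_tmul]; simp⟩
  let b := Module.Free.chooseBasis ℤ L
  have h2 : ∀ i, ∃ k, b.repr x i = p * k := fun i => by
    have := congrArg (fun u => (b.baseChange (ZMod p)).repr u i) h
    simp only [Basis.baseChange_repr_tmul, map_zero, Finsupp.coe_zero, Pi.zero_apply,
      zsmul_eq_mul, mul_one] at this
    exact (ZMod.intCast_zmod_eq_zero_iff_dvd _ p).1 this
  choose k hk using h2
  refine ⟨∑ i, k i • b i, ?_⟩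
  conv_lhs => rw [← b.sum_repr x]
  simp only [Finset.smul_sum, hk, mul_smul]

theorem modp (hr : finrank ℤ L = 23)
    (hp : ∀ d ≤ 23, Odd d → p ^ d ≡ p [MOD 23] → d = 1 ∨ d = 23)
    (c : LinearMap.BilinForm ℤ L) (alt : ∀ y, c y y = 0) (f : End ℤ L) (hf : f ^ 23 = 1)
    (inv : ∀ y z, c (f y) (f z) = c y z) (v : L) (hv : f v = v) (hc : ∀ z, c v z = 0)
    (hv0 : ∀ l, v ≠ (p : ℤ) • l)
    (hfix : ∀ y l, f y - y = (p : ℤ) • l → ∃ (k : ℤ) (l : L), y = k • v + (p : ℤ) • l) :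
    (∀ y z, (p : ℤ) ∣ c y z) ∨
      ∀ y, (∀ z, (p : ℤ) ∣ c y z) → ∃ (k : ℤ) (l : L), y = k • v + (p : ℤ) • l := by
  classical
  let cp := c.baseChange (ZMod p)
  let K := LinearMap.ker cp
  have hK : ∀ y : L, (1 : ZMod p) ⊗ₜ[ℤ] y ∈ K ↔ ∀ z, (p : ℤ) ∣ c y z := fun y => by
    constructor
    · intro h z
      have := LinearMap.congr_fun h (1 ⊗ₜ z)
      simp only [cp, LinearMap.BilinForm.baseChange_tmul, mul_one, zsmul_eq_mul,
        LinearMap.zero_apply] at this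
      exact (ZMod.intCast_zmod_eq_zero_iff_dvd _ p).1 this
    · refine fun h => LinearMap.ext fun u => ?_
      obtain ⟨z, rfl⟩ := exists_redp u
      simp only [cp, LinearMap.BilinForm.baseChange_tmul, mul_one, zsmul_eq_mul,
        LinearMap.zero_apply]
      exact (ZMod.intCast_zmod_eq_zero_iff_dvd _ p).2 (h z)
  have h1 : cp.IsAlt := fun u => by
    obtain ⟨y, rfl⟩ := exists_redp u
    simp [cp, alt]
  have hR : finrank (ZMod p) (ZMod p ⊗[ℤ] L) = 23 := by rw [Module.finrank_baseChange, hr]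
  have h2 := CF.Fong.even_add_ker h1
  rw [hR] at h2
  have hs : Function.Surjective f := fun z => ⟨(f ^ 22) z, by
    rw [← End.mul_apply, ← pow_succ', hf, End.one_apply]⟩
  have hfK : ∀ a ∈ K, f.baseChange (ZMod p) a ∈ K := fun a ha => by
    obtain ⟨y, rfl⟩ := exists_redp a
    rw [LinearMap.baseChange_tmul, hK]
    intro z
    obtain ⟨z, rfl⟩ := hs z
    rw [inv]; exact (hK y).1 ha z
  haveI : Finite (ZMod p ⊗[ℤ] L) := Module.finite_of_finite (ZMod p)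
  haveI := Fintype.ofFinite K
  let F : Function.End K := fun a => ⟨f.baseChange (ZMod p) a, hfK a a.2⟩
  have hF : ∀ (n : ℕ) (a : K), ((F ^ n) a).1 = (f.baseChange (ZMod p) ^ n) a := fun n => by
    induction n with
    | zero => intro a; rfl
    | succ n ih => intro a; rw [pow_succ, pow_succ, End.mul_apply]; exact ih (F a)
  have h3 := Equiv.Perm.card_fixedPoints_modEq (f := F) (p := 23) (n := 1) (funext fun a => Subtype.ext (by
    rw [hF, ← LinearMap.baseChange_pow, pow_one, hf, LinearMap.baseChange_one]; rfl))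
  have hvK : (1 : ZMod p) ⊗ₜ[ℤ] v ∈ K := (hK v).2 fun z => by rw [hc]; exact dvd_zero _
  have hv1 : ((1 : ZMod p) ⊗ₜ[ℤ] v : ZMod p ⊗[ℤ] L) ≠ 0 := fun e => by
    obtain ⟨l, hl⟩ := redp_eq_zero.1 e
    exact hv0 l hl
  have hsm : ∀ (k : ℤ) (l : L), ((1 : ZMod p) ⊗ₜ[ℤ] (k • v + (p : ℤ) • l) : ZMod p ⊗[ℤ] L) =
      (k : ZMod p) • ((1 : ZMod p) ⊗ₜ[ℤ] v) := fun k l => by
    rw [tmul_add, redp_eq_zero.2 ⟨l, rfl⟩, add_zero, tmul_smul, Int.cast_smul_eq_zsmul]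
  have h4 : Fintype.card (Function.fixedPoints F) = p := by
    refine Eq.trans (Fintype.card_of_bijective (f := fun k : ZMod p =>
      (⟨⟨k • ((1 : ZMod p) ⊗ₜ[ℤ] v), K.smul_mem k hvK⟩, Subtype.ext (by
        simp only [F, map_smul, LinearMap.baseChange_tmul, hv])⟩ : Function.fixedPoints F))
      ⟨fun a b e => ?_, fun a => ?_⟩).symm (ZMod.card p)
    · exact smul_left_injective _ hv1 (congrArg (fun t => t.1.1) e)
    · obtain ⟨y, hy⟩ := exists_redp a.1.1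
      have e : f.baseChange (ZMod p) a.1.1 = a.1.1 := congrArg Subtype.val a.2
      rw [hy, LinearMap.baseChange_tmul, ← sub_eq_zero, ← tmul_sub] at e
      obtain ⟨l, hl⟩ := redp_eq_zero.1 e
      obtain ⟨k, l', rfl⟩ := hfix y l hl
      exact ⟨k, Subtype.ext (Subtype.ext (by rw [hy, hsm]))⟩
  rw [h4, Module.card_eq_pow_finrank (K := ZMod p), ZMod.card] at h3
  rcases hp _ (hR ▸ Submodule.finrank_le K) (by
    rcases h2 with ⟨r, hr⟩
    exact ⟨r - 12, by simp only [K]; omega⟩) h3 with e | e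
  · refine Or.inr fun y hy => ?_
    obtain ⟨k, hk⟩ := (finrank_eq_one_iff_of_nonzero' (⟨_, hvK⟩ : K)
      (fun e => hv1 (congrArg Subtype.val e))).1 e ⟨_, (hK y).2 hy⟩
    obtain ⟨k, rfl⟩ := ZMod.intCast_surjective k
    have e1 : (k : ZMod p) • ((1 : ZMod p) ⊗ₜ[ℤ] v) = (1 : ZMod p) ⊗ₜ[ℤ] y := congrArg Subtype.val hk
    rw [← hsm k 0, eq_comm, ← sub_eq_zero, ← tmul_sub] at e1
    obtain ⟨l, hl⟩ := redp_eq_zero.1 e1
    exact ⟨k, l, by rw [← hl]; simp⟩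
  · exact Or.inl fun y => (hK y).1 (by
      rw [Submodule.eq_top_of_finrank_eq (S := K) (e.trans hR.symm)]; trivial)

end modp

variable {G V : Type*} [Group G] [AddCommGroup V] [Module ℚ V]

theorem IZ.smul {L : Submodule ℤ V} {q : ℚ} (h : IZ q) {y : V} (hy : y ∈ L) : q • y ∈ L := by
  obtain ⟨n, rfl⟩ := h
  rw [Int.cast_smul_eq_zsmul]; exact L.smul_mem n hy

/-- An even invariant lattice. -/
structure Lt (ρ : G →* End ℚ V) (β : LinearMap.BilinForm ℚ V) (L : Submodule ℤ V) : Prop where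
  lat : L.IsLattice ℚ
  inv : ∀ g, ∀ y ∈ L, ρ g y ∈ L
  ev : ∀ y ∈ L, IZ (β y y / 2)

/-- Membership in the dual lattice. -/
def Du (β : LinearMap.BilinForm ℚ V) (L : Submodule ℤ V) (y : V) : Prop := ∀ z ∈ L, IZ (β y z)

variable {ρ : G →* End ℚ V} {β : LinearMap.BilinForm ℚ V} {L : Submodule ℤ V}

theorem Du.smul {y : V} (h : Du β L y) {q : ℚ} (hq : IZ q) : Du β L (q • y) := fun z hz =>
  (hq.mul (h z hz)).congr (by simp)

theorem Du.sub {y y' : V} (h : Du β L y) (h' : Du β L y') : Du β L (y - y') := fun z hz =>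
  ((h z hz).sub (h' z hz)).congr (by simp)

theorem Du.add {y y' : V} (h : Du β L y) (h' : Du β L y') : Du β L (y + y') := fun z hz =>
  ((h z hz).add (h' z hz)).congr (by simp)

theorem Du.neg {y : V} (h : Du β L y) : Du β L (-y) := fun z hz =>
  (h z hz).neg.congr (by simp)

theorem exists_frame (L : Submodule ℤ V) [L.IsLattice ℚ] (hr : finrank ℚ V = 23) :
    ∃ e : Basis (Fin 23) ℚ V, (∀ i, e i ∈ L) ∧ ∀ y, y ∈ L ↔ ∀ i, IZ (e.repr y i) := by
  let b := Module.finBasisOfFinrankEq ℤ L ((CF.Fong.finrank_lat L).trans hr)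
  have he : ∀ i, b.extendOfIsLattice ℚ i ∈ L := fun i => by simp
  refine ⟨b.extendOfIsLattice ℚ, he, fun y => ⟨fun hy i => ⟨b.repr ⟨y, hy⟩ i, ?_⟩, fun hy => ?_⟩⟩
  · have := congrArg Subtype.val (b.sum_repr ⟨y, hy⟩)
    simp only [AddSubmonoidClass.coe_finset_sum, SetLike.val_smul] at this
    conv_lhs => rw [← this]
    simp only [← Int.cast_smul_eq_zsmul ℚ, ← Basis.extendOfIsLattice_apply ℚ b]
    rw [Basis.repr_sum_self]
  · rw [← (b.extendOfIsLattice ℚ).sum_repr y]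
    exact L.sum_mem fun i _ => (hy i).smul (he i)

theorem exists_den (L : Submodule ℤ V) [L.IsLattice ℚ] (hr : finrank ℚ V = 23) (y : V) :
    ∃ n : ℕ, 0 < n ∧ (n : ℚ) • y ∈ L := by
  obtain ⟨e, -, h⟩ := exists_frame L hr
  refine ⟨∏ i, (e.repr y i).den, Finset.prod_pos fun i _ => Rat.den_pos _, (h _).2 fun i => ?_⟩
  obtain ⟨k, hk⟩ := Finset.dvd_prod_of_mem (fun i => (e.repr y i).den) (Finset.mem_univ i)
  refine ⟨k * (e.repr y i).num, ?_⟩
  rw [hk, map_smul, Finsupp.smul_apply, smul_eq_mul]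
  push_cast
  rw [← Rat.mul_den_eq_num]; ring

theorem Rp.exists_dual (h : Rp ρ β) (L : Submodule ℤ V) [L.IsLattice ℚ] :
    ∃ e f : Fin 23 → V, (∀ i, e i ∈ L) ∧ (∀ i, Du β L (f i)) ∧ (∀ i, β (f i) (e i) = 1) ∧
      (∀ y, (∀ i, IZ (β (f i) y)) → y ∈ L) := by
  haveI := h.fd
  obtain ⟨e, he, hL⟩ := exists_frame L h.fr
  have k : ∀ i y, β (β.dualBasis h.nondeg e i) y = e.repr y i := fun i y => by
    conv_lhs => rw [← e.sum_repr y]
    simp only [map_sum, map_smul, LinearMap.BilinForm.apply_dualBasis_left, smul_eq_mul, mul_ite, mul_one,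
      mul_zero, Finset.sum_ite_eq', Finset.mem_univ, if_true]
  exact ⟨e, β.dualBasis h.nondeg e, he, fun i z hz => ((hL z).1 hz i).congr (k i z).symm,
    fun i => by simp [k], fun y hy => (hL y).2 fun i => (hy i).congr (k i y)⟩

theorem Lt.du (h : Rp ρ β) (hL : Lt ρ β L) {y : V} (hy : y ∈ L) : Du β L y := fun z hz =>
  (((hL.ev _ (L.add_mem hy hz)).sub (hL.ev _ hy)).sub (hL.ev _ hz)).congr (by
    simp only [map_add, LinearMap.add_apply, h.symm z y]; ring)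

theorem Du.map (h : Rp ρ β) (hL : Lt ρ β L) {y : V} (hy : Du β L y) (g : G) : Du β L (ρ g y) :=
  fun z hz => (hy _ (hL.inv g⁻¹ z hz)).congr (h.inv' g y z).symm

theorem Lt.XX (hL : Lt ρ β L) (x : G) (i : ZMod 23) {y : V} (hy : y ∈ L) : XX ρ x i y ∈ L :=
  hL.inv _ y hy

theorem Lt.TT (hL : Lt ρ β L) (x : G) {y : V} (hy : y ∈ L) : TT ρ x y ∈ L := by
  rw [TT_apply]; exact L.sum_mem fun i _ => hL.XX x i hy

theorem exists_lt [Finite G] (hr : finrank ℚ V = 23)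
    (irr : ∀ W : Submodule ℚ V, (∀ g, ∀ w ∈ W, ρ g w ∈ W) → W = ⊥ ∨ W = ⊤) :
    ∃ β L, Rp ρ β ∧ Lt ρ β L := by
  classical
  haveI : FiniteDimensional ℚ V := Module.finite_of_finrank_pos (by rw [hr]; norm_num)
  haveI := Fintype.ofFinite G
  obtain ⟨-, L, -, -, -, hl, hi, -⟩ := CF.Fong.exists_data (ρ := ρ)
  obtain ⟨e, he, hL⟩ := exists_frame L hr
  let b : LinearMap.BilinForm ℚ V := ∑ g, ∑ i, (LinearMap.mul ℚ ℚ).compl₁₂
    (e.coord i ∘ₗ ρ g) (e.coord i ∘ₗ ρ g)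
  have hb : ∀ x y, b x y = ∑ g, ∑ i, e.repr (ρ g x) i * e.repr (ρ g y) i := fun x y => by
    simp [b, LinearMap.sum_apply]
  have h : Rp ρ b := ⟨hr, irr, fun x y => by simp [hb, mul_comm], fun x hx => ?_, fun g x y => ?_⟩
  · refine ⟨_, L, h.smul (c := 2) (by norm_num), hl, hi, fun y hy => IZ.congr (a := b y y) ?_ (by simp)⟩
    rw [hb]
    exact IZ.sum _ fun g _ => IZ.sum _ fun i _ => ((hL _).1 (hi g y hy) i).mul ((hL _).1 (hi g y hy) i)
  · rw [hb]
    refine lt_of_le_of_ne (Finset.sum_nonneg fun g _ => Finset.sum_nonneg fun i _ => mul_self_nonneg _)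
      fun h0 => hx ?_
    have h1 := (Finset.sum_eq_zero_iff_of_nonneg fun g _ =>
      Finset.sum_nonneg fun i _ => mul_self_nonneg _).1 h0.symm 1 (Finset.mem_univ _)
    have h2 := (Finset.sum_eq_zero_iff_of_nonneg fun i _ => mul_self_nonneg _).1 h1
    refine e.repr.map_eq_zero_iff.1 (Finsupp.ext fun i => ?_)
    simpa using h2 i (Finset.mem_univ _)
  · simp only [hb, ← End.mul_apply, ← map_mul]
    exact Equiv.sum_comp (Equiv.mulRight g) fun k => ∑ i, e.repr (ρ k x) i * e.repr (ρ k y) i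

theorem Lt.dvd_card [Finite G] (h : Rp ρ β) (hL : Lt ρ β L) : 23 ∣ Nat.card G := by
  haveI := Fintype.ofFinite G
  haveI := hL.lat
  obtain ⟨e, f, he, hf, h1, -⟩ := h.exists_dual L
  have := congrArg (β (f 0)) (h.fourier (f 0) (e 0) (e 0))
  rw [map_sum, map_smul, h1] at this
  obtain ⟨n, hn⟩ : IZ (∑ g, β (f 0) (β (ρ g (f 0)) (e 0) • ρ g (e 0))) := IZ.sum _ fun g _ =>
    hf 0 _ (((hf 0).map h hL g _ (he 0)).smul (hL.inv g _ (he 0)))
  rw [hn, smul_eq_mul] at this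
  have e2 : (Fintype.card G : ℤ) = 23 * n := by
    have : (Fintype.card G : ℚ) = 23 * n := by linarith
    exact_mod_cast this
  rw [Nat.card_eq_fintype_card]
  exact Int.natCast_dvd_natCast.1 ⟨n, e2⟩

/-- Irreducibility modulo a prime. -/
theorem Lt.irr_mod [Finite G] (h : Rp ρ β) (hL : Lt ρ β L) {p : ℕ} (hp : p.Prime) {m : ℕ}
    (hm : Nat.card G = 23 * m) (hpm : ¬ p ∣ m) {y : V} (hy : y ∈ L)
    (hP : Du β L ((1 / p : ℚ) • y)) : (1 / p : ℚ) • y ∈ L ∨ ∀ z ∈ L, Du β L ((1 / p : ℚ) • z) := by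
  haveI := Fintype.ofFinite G
  haveI := hL.lat
  obtain ⟨e, f, he, hf, h1, h2⟩ := h.exists_dual L
  have hp0 : (p : ℚ) ≠ 0 := by exact_mod_cast hp.ne_zero
  by_cases hc : ∀ i, IZ (β (f i) ((1 / p : ℚ) • y))
  · exact Or.inl (h2 _ hc)
  push Not at hc
  obtain ⟨i, hi⟩ := hc
  obtain ⟨n, hn⟩ := hf i y hy
  have hn' : ¬ (p : ℤ) ∣ n := by
    rintro ⟨k, rfl⟩
    exact hi ⟨k, by rw [map_smul, hn, smul_eq_mul]; push_cast; field_simp⟩
  refine Or.inr fun z hz w hw => ?_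
  have e1 := congrArg (fun t => β ((1 / p : ℚ) • t) w) (h.fourier (f i) y z)
  rw [← Nat.card_eq_fintype_card, hm, hn] at e1
  have hc : IsCoprime ((m : ℤ) * n) p := by
    have hp' := Nat.prime_iff_prime_int.1 hp
    exact ((hp'.coprime_iff_not_dvd).2 fun hd => (hp'.dvd_or_dvd hd).elim
      (fun e => hpm (Int.natCast_dvd_natCast.1 e)) hn').symm
  refine IZ.of_cop hc ?_ ((hL.du h hz w hw).congr ?_)
  · refine IZ.congr (a := ∑ g, β (ρ g (f i)) z * β (ρ g ((1 / p : ℚ) • y)) w)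
      (IZ.sum _ fun g _ => ((hf i).map h hL g z hz).mul (hP.map h hL g w hw)) ?_
    simp only [map_smul, map_sum, LinearMap.smul_apply, LinearMap.sum_apply, smul_eq_mul] at e1 ⊢
    rw [Finset.mul_sum] at e1
    rw [show ((m : ℤ) * n : ℤ) * (1 / (p : ℚ) * β z w) = 1 / p * (((23 * m : ℕ) : ℚ) / 23 * n * β z w) by
      push_cast; ring, ← e1]
    exact Finset.sum_congr rfl fun g _ => by ring
  · simp only [map_smul, LinearMap.smul_apply, smul_eq_mul]
    push_cast; field_simp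

theorem sum_eq_TT [Fintype G] {x : G} (hx : orderOf x = 23) (F : G → V) (hF : ∀ g, F g ∈ L)
    (h : ∀ g, F (x * g) = ρ x (F g)) : ∃ a ∈ L, ∑ g, F g = TT ρ x a := by
  classical
  obtain ⟨S, hS, -⟩ := (Subgroup.zpowers x).exists_isComplement_right 1
  haveI := Fintype.ofFinite S
  have h1 : ∀ (n : ℕ) g, F (x ^ n * g) = ρ (x ^ n) (F g) := fun n g => by
    induction n with
    | zero => simp
    | succ n ih => rw [pow_succ', mul_assoc, h, ih, map_mul, End.mul_apply]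
  let e : ZMod 23 ≃ Subgroup.zpowers x :=
    (finCongr hx.symm).trans (finEquivZPowers (isOfFinOrder_of_finite x))
  refine ⟨∑ t : S, F t, L.sum_mem fun t _ => hF t, ?_⟩
  rw [← Fintype.sum_bijective _ (hS.comp (e.prodCongr (Equiv.refl S)).bijective)
    (fun p => F (x ^ p.1.val * p.2)) F (fun _ => rfl), Fintype.sum_prod_type, TT_apply]
  refine Finset.sum_congr rfl fun i _ => ?_
  simp only [h1, XX, map_sum]

end CF.Feit
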