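import Cfsg.Agent.Feit.B

/-! Normalisation of the invariant lattice: cyclic discriminant group. -/

set_option autoImplicit false
set_option linter.style.haveILetI false

namespace CF.Feit

open Module

variable {G V : Type*} [Group G] [AddCommGroup V] [Module ℚ V]

/-- The normalised situation. -/
structure Ctx (ρ : G →* End ℚ V) (β : LinearMap.BilinForm ℚ V) (x : G) (L : Submodule ℤ V) (u : V)
    (D : ℕ) : Prop where
  rp : Rp ρ β
  lt : Lt ρ β L
  hx : x ^ 23 = 1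
  hx1 : ρ x ≠ 1
  fix : ρ x u = u
  nu : β u u = 23 / D
  D0 : 0 < D
  dual : ∀ y, Du β L y ↔ ∃ k : ℤ, y - (k : ℚ) • u ∈ L
  ord : ∀ q : ℚ, q • u ∈ L ↔ IZ (q / D)
  ev : 2 ∣ D
  n8 : ¬ 8 ∣ D
  n23 : ¬ 23 ∣ D

/-- The skew element. -/
def ss (ρ : G →* End ℚ V) (x : G) : End ℚ V := XX ρ x 12 - XX ρ x 11

/-- The values of the alternating form. -/
def II (ρ : G →* End ℚ V) (β : LinearMap.BilinForm ℚ V) (x : G) (L : Submodule ℤ V) : AddSubgroup ℚ :=
  AddSubgroup.closure {q | ∃ y ∈ L, ∃ z ∈ L, q = β (ss ρ x y) z}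

variable {ρ : G →* End ℚ V} {β : LinearMap.BilinForm ℚ V} {L : Submodule ℤ V} {x : G}

theorem ss_apply (y : V) : ss ρ x y = XX ρ x 12 y - XX ρ x 11 y := rfl

theorem Lt.ss (hL : Lt ρ β L) {y : V} (hy : y ∈ L) : ss ρ x y ∈ L :=
  L.sub_mem (hL.XX x _ hy) (hL.XX x _ hy)

theorem II_int (h : Rp ρ β) (hL : Lt ρ β L) {q : ℚ} (hq : q ∈ II ρ β x L) : IZ q := by
  induction hq using AddSubgroup.closure_induction with
  | mem q hq => obtain ⟨y, hy, z, hz, rfl⟩ := hq; exact hL.du h (hL.ss hy) z hz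
  | zero => exact ⟨0, by simp⟩
  | add _ _ _ _ a b => exact a.add b
  | neg _ _ a => exact a.neg

theorem exists_ss (hx : x ^ 23 = 1) (M : Submodule ℤ V) (hM : ∀ z ∈ M, ρ x z ∈ M) {y : V} (hy : y ∈ M) :
    ∃ y' ∈ M, (23 : ℚ) • y - TT ρ x y = ss ρ x y' := by
  have h0 : ∀ n : ℕ, ∀ z ∈ M, ρ (x ^ n) z ∈ M := fun n z hz => by
    induction n with
    | zero => simpa using hz
    | succ n ih => rw [pow_succ', map_mul]; exact hM _ ih
  have h1 : ∀ n : ℕ, ∃ y' ∈ M, y - ρ (x ^ n) y = ss ρ x y' := fun n => by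
    induction n with
    | zero => exact ⟨0, M.zero_mem, by simp⟩
    | succ n ih =>
      obtain ⟨y', a, e⟩ := ih
      refine ⟨y' - XX ρ x 12 (ρ (x ^ n) y), M.sub_mem a (h0 _ _ (h0 _ _ hy)), ?_⟩
      rw [map_sub, ← e, ss_apply, ← XX_add hx, ← XX_add hx, show (12 + 12 : ZMod 23) = 1 from rfl,
        show (11 + 12 : ZMod 23) = 0 from rfl, XX_one, XX_zero, pow_succ', map_mul, End.mul_apply]
      abel
  choose f hf e using h1
  refine ⟨∑ i : ZMod 23, f i.val, M.sum_mem fun i _ => hf _, ?_⟩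
  rw [map_sum, ← Finset.sum_congr rfl fun (i : ZMod 23) _ => e i.val, Finset.sum_sub_distrib, TT_apply]
  simp only [Finset.sum_const, Finset.card_univ, ZMod.card, XX]
  rw [← Nat.cast_smul_eq_nsmul ℚ]; rfl

theorem lattice_of_le [L.IsLattice ℚ] {M : Submodule ℤ V} (hle : M ≤ L) {q : ℚ} (hq : q ≠ 0)
    (h : ∀ y ∈ L, q • y ∈ M) : M.IsLattice ℚ where
  fg := (Submodule.IsLattice.fg (A := ℚ)).of_le hle
  span_eq_top := by
    rw [eq_top_iff, ← Submodule.IsLattice.span_eq_top (A := ℚ) (M := L), Submodule.span_le]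
    intro y hy
    have := Submodule.smul_mem _ q⁻¹ (Submodule.subset_span (R := ℚ) (h y hy))
    rwa [smul_smul, inv_mul_cancel₀ hq, one_smul] at this

theorem shrink (h : Rp ρ β) (hL : Lt ρ β L) (hx : x ^ 23 = 1) {p : ℕ} (hp : p.Prime) (h23 : p ≠ 23)
    (hall : ∀ y ∈ L, Du β L ((1 / p : ℚ) • ss ρ x y)) :
    ∃ L', Lt ρ ((1 / p : ℚ) • β) L' ∧ ∀ q ∈ II ρ β x L, q / p ∈ II ρ ((1 / p : ℚ) • β) x L' := by
  haveI := hL.lat
  have hp0 : (p : ℚ) ≠ 0 := by exact_mod_cast hp.ne_zero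
  have hc : IsCoprime (23 : ℤ) p := by
    have := Nat.isCoprime_iff_coprime.2 ((Nat.coprime_primes (by norm_num) hp).2 h23.symm)
    exact_mod_cast this
  let P : Submodule ℤ V :=
    { carrier := {y | y ∈ L ∧ Du β L ((1 / p : ℚ) • y)}
      add_mem' := fun ⟨a, k⟩ ⟨a', k'⟩ => ⟨L.add_mem a a', by rw [smul_add]; exact k.add k'⟩
      zero_mem' := ⟨L.zero_mem, by rw [smul_zero]; exact hL.du h L.zero_mem⟩
      smul_mem' := fun n y ⟨a, k⟩ => ⟨L.smul_mem n a, by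
        rw [← Int.cast_smul_eq_zsmul ℚ, smul_comm]; exact k.smul (IZ.int n)⟩ }
  have hP : ∀ g, ∀ y ∈ P, ρ g y ∈ P := fun g y ⟨a, k⟩ =>
    ⟨hL.inv g y a, by rw [← map_smul]; exact k.map h hL g⟩
  let P' : Submodule ℤ V :=
    { carrier := {y | y ∈ P ∧ IZ (((1 / p : ℚ) • β) y y / 2)}
      add_mem' := fun {y z} ⟨a, k⟩ ⟨a', k'⟩ => ⟨P.add_mem a a', ((k.add k').add (a.2 z a'.1)).congr (by
        simp only [map_add, map_smul, LinearMap.add_apply, LinearMap.smul_apply, smul_eq_mul, h.symm z y]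
        ring)⟩
      zero_mem' := ⟨P.zero_mem, 0, by simp⟩
      smul_mem' := fun n y ⟨a, k⟩ => ⟨P.smul_mem n a, (((IZ.int n).mul (IZ.int n)).mul k).congr (by
        simp only [← Int.cast_smul_eq_zsmul ℚ, map_smul, LinearMap.smul_apply, smul_eq_mul]
        ring)⟩ }
  have h1 : ∀ y ∈ L, (p : ℚ) • y ∈ P' := fun y hy =>
    ⟨⟨(IZ.nat p).smul hy, by rw [smul_smul, one_div_mul_cancel hp0, one_smul]; exact hL.du h hy⟩,
      ((IZ.nat p).mul (hL.ev y hy)).congr (by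
        simp only [map_smul, LinearMap.smul_apply, smul_eq_mul]; field_simp)⟩
  have h2 : ∀ w ∈ L, TT ρ x w = 0 → w ∈ P := fun w hw hT => by
    obtain ⟨y, hy, e⟩ := exists_ss hx L (hL.inv x) hw
    refine ⟨hw, fun z hz => IZ.of_cop hc ((hall y hy z hz).congr ?_) ((hL.du h hw z hz).congr ?_)⟩
    · rw [← e, hT, sub_zero]; simp only [map_smul, LinearMap.smul_apply, smul_eq_mul]; push_cast; ring
    · simp only [map_smul, LinearMap.smul_apply, smul_eq_mul]; push_cast; field_simp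
  have h3 : ∀ w ∈ L, TT ρ x w = 0 → w ∈ P' := fun w hw hT => by
    obtain ⟨y, hy, e⟩ := exists_ss hx P (hP x) (h2 w hw hT)
    rw [hT, sub_zero] at e
    refine ⟨h2 w hw hT, IZ.of_cop (hc.pow_left (m := 2)) (((hy.2 y hy.1).sub
      ((hP (x ^ (12 : ZMod 23).val) y hy).2 _ (hL.XX x 11 hy.1))).congr ?_) ((hL.ev w hw).congr ?_)⟩
    · have e2 : β ((23 : ℚ) • w) ((23 : ℚ) • w) = 2 * β y y - 2 * β (XX ρ x 12 y) (XX ρ x 11 y) := by
        rw [e, ss_apply]
        simp only [map_sub, LinearMap.sub_apply, h.XX_inv, h.symm (XX ρ x 11 y) (XX ρ x 12 y)]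
        ring
      simp only [map_smul, LinearMap.smul_apply, smul_eq_mul] at e2 ⊢
      show _ - 1 / (p : ℚ) * β (XX ρ x 12 y) (XX ρ x 11 y) = _
      push_cast
      linear_combination (-1 / (2 * p)) * e2
    · simp only [LinearMap.smul_apply, smul_eq_mul]; push_cast; field_simp
  refine ⟨P', ⟨lattice_of_le (fun y hy => hy.1.1) hp0 h1, fun g y hy => ⟨hP g y hy.1,
    hy.2.congr (by simp only [LinearMap.smul_apply, h.inv])⟩, fun y hy => hy.2⟩, fun q hq => ?_⟩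
  induction hq using AddSubgroup.closure_induction with
  | mem q hq =>
    obtain ⟨y, hy, z, hz, rfl⟩ := hq
    have k : ∀ y ∈ L, (23 : ℚ) • y - TT ρ x y ∈ P' := fun y hy =>
      h3 _ (L.sub_mem ((IZ.nat 23).smul hy) (hL.TT x hy)) (by
        rw [map_sub, map_smul, TT_fix (x_TT hx y), sub_self])
    obtain ⟨a, b, e⟩ := (hc.pow (m := 2) (n := 2))
    have e' : (a : ℚ) * 23 ^ 2 + b * p ^ 2 = 1 := by exact_mod_cast e
    have m1 := (II ρ ((1 / p : ℚ) • β) x P').zsmul_mem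
      (AddSubgroup.subset_closure ⟨_, k y hy, _, k z hz, rfl⟩) a
    have m2 := (II ρ ((1 / p : ℚ) • β) x P').zsmul_mem
      (AddSubgroup.subset_closure ⟨_, h1 y hy, _, h1 z hz, rfl⟩) b
    have t1 : ss ρ x (TT ρ x y) = 0 := by rw [ss_apply, XX_TT hx, XX_TT hx, sub_self]
    have t2 : β (ss ρ x y) (TT ρ x z) = 0 := by
      have := h.TT_b hx (x_TT hx z) (ss ρ x y)
      rw [ss_apply, map_sub, TT_XX hx, TT_XX hx, sub_self, map_zero, LinearMap.zero_apply] at this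
      rw [ss_apply]; linarith
    convert add_mem m1 m2 using 1
    simp only [map_sub, map_smul, t1, LinearMap.smul_apply, LinearMap.sub_apply, smul_eq_mul, t2,
      zsmul_eq_mul, sub_zero, mul_zero]
    linear_combination (-β (ss ρ x y) z / p) * e'
  | zero => simp
  | add _ _ _ _ a b => rw [add_div]; exact add_mem a b
  | neg _ _ a => rw [neg_div]; exact neg_mem a

theorem small_prime {p : ℕ} (hp : p.Prime) (h : p ≤ 23) (h' : p ≠ 23) :
    ∀ d ≤ 23, Odd d → p ^ d ≡ p [MOD 23] → d = 1 ∨ d = 23 := by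
  have : ∀ p : Fin 23, p.1.Prime → ∀ d : Fin 24, d.1 % 2 = 1 → p.1 ^ d.1 % 23 = p.1 % 23 →
      d.1 = 1 ∨ d.1 = 23 := by decide +kernel
  exact fun d hd ho e => this ⟨p, by omega⟩ hp ⟨d, by omega⟩ (Nat.odd_iff.1 ho) e

/-- The radical modulo `p` for a small prime. -/
theorem rad_small (h : Rp ρ β) (hL : Lt ρ β L) (hx : x ^ 23 = 1) {p : ℕ} (hp : p.Prime) (h1 : p ≤ 23)
    (h23 : p ≠ 23) {v : V} (hv : v ∈ L) (hxv : ρ x v = v) (prim : ∀ q : ℚ, q • v ∈ L → IZ q)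
    (hT : ∀ y ∈ L, ∃ k : ℤ, TT ρ x y = (k : ℚ) • v) :
    (∀ y ∈ L, Du β L ((1 / p : ℚ) • ss ρ x y)) ∨
      ∀ y ∈ L, Du β L ((1 / p : ℚ) • y) → ∃ k : ℤ, ∃ l ∈ L, y = (k : ℚ) • v + (p : ℚ) • l := by
  haveI := hL.lat
  haveI := Fact.mk hp
  have hp0 : (p : ℚ) ≠ 0 := by exact_mod_cast hp.ne_zero
  have hi : CF.Fong.Inv ρ L := hL.inv
  obtain ⟨c, hc⟩ := CF.Fong.Intg.exists_form (b := β.compLeft (ss ρ x)) (L := L)
    fun y hy z hz => hL.du h (hL.ss hy) z hz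
  have hc' : ∀ y z : L, (c y z : ℚ) = β (ss ρ x y) z := hc
  have hd : ∀ y z : L, (p : ℤ) ∣ c y z ↔ IZ (β ((1 / p : ℚ) • ss ρ x y) z) := fun y z => by
    rw [map_smul, LinearMap.smul_apply, ← hc', smul_eq_mul]
    constructor
    · rintro ⟨k, e⟩; exact ⟨k, by rw [e]; push_cast; field_simp⟩
    · rintro ⟨k, e⟩
      refine ⟨k, Int.cast_injective (α := ℚ) ?_⟩
      push_cast; rw [← e]; field_simp
  have hcast : ∀ (k : ℤ) (y l : L), y = k • (⟨v, hv⟩ : L) + (p : ℤ) • l ↔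
      (y : V) = (k : ℚ) • v + (p : ℚ) • (l : V) := fun k y l => by
    rw [Subtype.ext_iff, Int.cast_smul_eq_zsmul, Nat.cast_smul_eq_nsmul ℚ]; simp
  rcases modp ((CF.Fong.finrank_lat L).trans h.fr) (small_prime hp h1 h23) c
    (fun y => Int.cast_injective (α := ℚ) (by rw [hc']; exact (h.alt hx y).trans Int.cast_zero.symm))
    (hi.act x) (by rw [← map_pow, hx, map_one])
    (fun y z => Int.cast_injective (α := ℚ) (by
      rw [hc', hc', hi.act_coe, hi.act_coe, ← h.inv x (ss ρ x y), ← XX_one, ss_apply, ss_apply, map_sub (XX ρ x 1),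
        ← XX_add hx, ← XX_add hx, ← XX_add hx, ← XX_add hx, add_comm 1, add_comm 1]))
    ⟨v, hv⟩ (Subtype.ext hxv)
    (fun z => Int.cast_injective (α := ℚ) (by rw [hc', ss_apply, XX_fix hxv, XX_fix hxv]; simp))
    (fun l e => by
      have e1 : v = (p : ℚ) • (l : V) := by
        rw [Nat.cast_smul_eq_nsmul]; simpa using congrArg Subtype.val e
      obtain ⟨n, hn⟩ := prim (1 / p) (by rw [e1, smul_smul, one_div_mul_cancel hp0, one_smul]; exact l.2)
      have : (p : ℤ) * n = 1 := Int.cast_injective (α := ℚ) (by push_cast; rw [← hn]; field_simp)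
      have := Int.natCast_dvd_natCast.1 (Dvd.intro _ this)
      exact hp.one_lt.ne' (Nat.dvd_one.1 this))
    (fun y l e => by
      have e1 : ρ x y - y = (p : ℚ) • (l : V) := by
        rw [Nat.cast_smul_eq_nsmul]; simpa [hi.act_coe] using congrArg Subtype.val e
      have k1 : ∀ n : ℕ, ∃ l ∈ L, ρ (x ^ n) y - y = (p : ℚ) • l := fun n => by
        induction n with
        | zero => exact ⟨0, L.zero_mem, by simp⟩
        | succ n ih =>
          obtain ⟨l', a, e⟩ := ih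
          refine ⟨ρ (x ^ n) l + l', L.add_mem (hL.inv _ _ l.2) a, ?_⟩
          rw [smul_add, ← e, ← map_smul, ← e1, pow_succ, map_mul, End.mul_apply, map_sub]; abel
      choose f hf e using k1
      obtain ⟨k, hk⟩ := hT y y.2
      have e2 : (k : ℚ) • v - (23 : ℚ) • (y : V) = (p : ℚ) • ∑ i : ZMod 23, f i.val := by
        rw [Finset.smul_sum, ← Finset.sum_congr rfl fun (i : ZMod 23) _ => e i.val, Finset.sum_sub_distrib,
          ← hk, TT_apply]
        simp only [Finset.sum_const, Finset.card_univ, ZMod.card, XX]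
        rw [← Nat.cast_smul_eq_nsmul ℚ]; rfl
      obtain ⟨a, b, e3⟩ : IsCoprime (23 : ℤ) p := by
        have := Nat.isCoprime_iff_coprime.2 ((Nat.coprime_primes (by norm_num) hp).2 h23.symm)
        exact_mod_cast this
      have e4 : (a : ℚ) * 23 + b * p = 1 := by exact_mod_cast e3
      refine ⟨a * k, ⟨(b : ℚ) • (y : V) - (a : ℚ) • ∑ i : ZMod 23, f i.val, L.sub_mem ((IZ.int b).smul y.2)
        ((IZ.int a).smul (L.sum_mem fun i _ => hf _))⟩, (hcast _ _ _).2 ?_⟩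
      push_cast
      linear_combination (norm := module) (-e4) • (y : V) - (a : ℚ) • e2) with k | k
  · exact Or.inl fun y hy z hz => (hd ⟨y, hy⟩ ⟨z, hz⟩).1 (k _ _)
  · refine Or.inr fun y hy hP => ?_
    obtain ⟨k, l, e⟩ := k ⟨y, hy⟩ fun z => (hd _ z).2 (by
      rw [← map_smul, ss_apply]
      exact ((hP.map h hL _).sub (hP.map h hL _)) z z.2)
    exact ⟨k, l, l.2, (hcast _ _ _).1 e⟩

theorem exists_ctx [Finite G] (hi : Function.Injective ρ) (hr : finrank ℚ V = 23)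
    (irr : ∀ W : Submodule ℚ V, (∀ g, ∀ w ∈ W, ρ g w ∈ W) → W = ⊥ ∨ W = ⊤) :
    ∃ β x L u D, Ctx ρ β x L u D := by
  classical
  haveI := Fintype.ofFinite G
  obtain ⟨β0, L0, h0, hL0⟩ := exists_lt (ρ := ρ) hr irr
  obtain ⟨m, hm⟩ := hL0.dvd_card h0
  have hm23 : ¬ 23 ∣ m := fun ⟨k, e⟩ => h0.not_sq hi ⟨k, by rw [hm, e]; ring⟩
  obtain ⟨x, ho⟩ := exists_prime_orderOf_dvd_card' (G := G) 23 ⟨m, hm⟩
  have hx : x ^ 23 = 1 := ho ▸ pow_orderOf_eq_one x
  have hx1 : ρ x ≠ 1 := fun e => by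
    rw [hi (e.trans (map_one ρ).symm), orderOf_one] at ho
    exact absurd ho (by norm_num)
  -- minimal content
  have ex1 : ∃ n : ℕ, 0 < n ∧ ∃ β L, Rp ρ β ∧ Lt ρ β L ∧ (n : ℚ) ∈ II ρ β x L := by
    haveI := hL0.lat
    obtain ⟨y, hy, z, hz, hne⟩ : ∃ y ∈ L0, ∃ z ∈ L0, β0 (ss ρ x y) z ≠ 0 := by
      by_contra hc
      push Not at hc
      refine hx1 (LinearMap.ext_on (Submodule.IsLattice.span_eq_top (A := ℚ) (M := L0)) fun y hy => ?_)
      exact fix_of_s hx (sub_eq_zero.1 (h0.eq_zero (hc y hy _ (hL0.ss hy))))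
    have hI : β0 (ss ρ x y) z ∈ II ρ β0 x L0 := AddSubgroup.subset_closure ⟨y, hy, z, hz, rfl⟩
    obtain ⟨n, hn⟩ := II_int h0 hL0 hI
    rw [hn] at hne hI
    refine ⟨n.natAbs, Int.natAbs_pos.2 (by exact_mod_cast hne), β0, L0, h0, hL0, ?_⟩
    rw [Nat.cast_natAbs, Int.cast_abs]
    exact abs_mem_iff.2 hI
  obtain ⟨n0, ⟨hn0, β1, L1, h1, hL1, hI1⟩, min1⟩ : ∃ n : ℕ, (0 < n ∧ ∃ β L, Rp ρ β ∧ Lt ρ β L ∧
      (n : ℚ) ∈ II ρ β x L) ∧ ∀ n' < n, ¬ (0 < n' ∧ ∃ β L, Rp ρ β ∧ Lt ρ β L ∧ (n' : ℚ) ∈ II ρ β x L) :=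
    ⟨Nat.find ex1, Nat.find_spec ex1, fun _ => Nat.find_min ex1⟩
  have ex2 : ∃ N : ℕ, 0 < N ∧ ∃ β L v, Rp ρ β ∧ Lt ρ β L ∧ (n0 : ℚ) ∈ II ρ β x L ∧ v ∈ L ∧ ρ x v = v ∧
      β v v = N := by
    haveI := hL1.lat
    obtain ⟨v, v0, hv⟩ := h1.exists_fix hx
    obtain ⟨n, hn, hnv⟩ := exists_den L1 hr v
    obtain ⟨k, hk⟩ := hL1.du h1 hnv _ hnv
    have hp := h1.pos ((n : ℚ) • v) (smul_ne_zero (by exact_mod_cast hn.ne') v0)
    rw [hk] at hp
    have hp' : 0 < k := by exact_mod_cast hp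
    lift k to ℕ using hp'.le
    exact ⟨k, by exact_mod_cast hp', β1, L1, _, h1, hL1, hI1, hnv, by rw [map_smul, hv], by simpa using hk⟩
  obtain ⟨N, ⟨hN, β, L, v, h, hL, hI, hv, hxv, hN0⟩, min2⟩ : ∃ N : ℕ, (0 < N ∧ ∃ β L v, Rp ρ β ∧ Lt ρ β L ∧
      (n0 : ℚ) ∈ II ρ β x L ∧ v ∈ L ∧ ρ x v = v ∧ β v v = N) ∧ ∀ N' < N, ¬ (0 < N' ∧ ∃ β L v, Rp ρ β ∧
      Lt ρ β L ∧ (n0 : ℚ) ∈ II ρ β x L ∧ v ∈ L ∧ ρ x v = v ∧ β v v = N') :=
    ⟨Nat.find ex2, Nat.find_spec ex2, fun _ => Nat.find_min ex2⟩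
  clear ex1 ex2 h0 hL0 h1 hL1 hI1
  haveI := hL.lat
  have hNq : (0 : ℚ) < N := by exact_mod_cast hN
  have v0 : v ≠ 0 := by rintro rfl; rw [map_zero] at hN0; exact hNq.ne hN0
  have nosh : ∀ p : ℕ, p.Prime → ∀ L', Lt ρ ((1 / p : ℚ) • β) L' →
      (n0 : ℚ) / p ∉ II ρ ((1 / p : ℚ) • β) x L' := fun p hp L' hL' hI' => by
    have hp0 : (0 : ℚ) < p := by exact_mod_cast hp.pos
    have hp1 : (1 : ℚ) < p := by exact_mod_cast hp.one_lt
    have hq : (0 : ℚ) < n0 := by exact_mod_cast hn0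
    have h' := h.smul (c := 1 / p) (by positivity)
    obtain ⟨k, hk⟩ := II_int h' hL' hI'
    have k0 : 0 < k := by have : (0 : ℚ) < k := hk ▸ div_pos hq hp0; exact_mod_cast this
    lift k to ℕ using k0.le
    rw [Int.cast_natCast] at hk
    have k1 : (k : ℚ) < n0 := by
      rw [← hk]; exact div_lt_self hq hp1
    exact min1 k (by exact_mod_cast k1) ⟨by exact_mod_cast k0, _, L', h', hL', hk ▸ hI'⟩
  have nosm : ∀ M, Lt ρ β M → L ≤ M → ∀ q : ℚ, 0 < q → q < 1 → q • v ∉ M := fun M hM hle q q0 q1 hq => by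
    obtain ⟨k, hk⟩ := hM.du h hq _ hq
    have e : (k : ℚ) = q * q * N := by
      rw [← hk, ← hN0]; simp only [map_smul, LinearMap.smul_apply, smul_eq_mul]; ring
    have k0 : 0 < k := by have : (0 : ℚ) < k := by rw [e]; positivity
                          exact_mod_cast this
    lift k to ℕ using k0.le
    have k1 : (k : ℚ) < N := by
      rw [← Int.cast_natCast, e]; nlinarith [mul_pos q0 hNq, mul_pos q0 q0]
    exact min2 k (by exact_mod_cast k1) ⟨by exact_mod_cast k0, β, M, _, h, hM,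
      AddSubgroup.closure_mono (by rintro _ ⟨y, hy, z, hz, e⟩; exact ⟨y, hle hy, z, hle hz, e⟩) hI, hq,
      by rw [map_smul, hxv], by simpa using hk⟩
  have prim : ∀ q : ℚ, q • v ∈ L → IZ q := fun q hq => by
    by_contra hc
    refine nosm L hL le_rfl (Int.fract q) (lt_of_le_of_ne (Int.fract_nonneg q) fun e => hc ⟨⌊q⌋, ?_⟩)
      (Int.fract_lt_one q) ?_
    · rw [← Int.floor_add_fract q, ← e]; simp
    · rw [Int.fract, sub_smul]; exact L.sub_mem hq ((IZ.int _).smul hv)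
  have hT : ∀ y ∈ L, ∃ k : ℤ, TT ρ x y = (k : ℚ) • v := fun y hy => by
    have e := h.TT_eq hx hx1 v0 hxv y
    obtain ⟨k, hk⟩ := prim _ (e ▸ hL.TT x hy)
    exact ⟨k, by rw [e, hk]⟩
  have r23 : ∀ y ∈ L, Du β L ((1 / (23 : ℕ) : ℚ) • y) → (1 / (23 : ℕ) : ℚ) • y ∈ L := fun y hy hP => by
    refine (hL.irr_mod h (by norm_num) hm hm23 hy hP).resolve_right fun hall => ?_
    refine nosh 23 (by norm_num) L ⟨hL.lat, hL.inv, fun y hy => IZ.of_cop (a := 2) (b := 23)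
      (by norm_num [Int.isCoprime_iff_gcd_eq_one]) ((hall y hy y hy).congr ?_) ((hL.ev y hy).congr ?_)⟩ ?_
    · simp only [map_smul, LinearMap.smul_apply, smul_eq_mul]; push_cast; ring
    · simp only [LinearMap.smul_apply, smul_eq_mul]; push_cast; ring
    · refine AddSubgroup.closure_induction (p := fun (q : ℚ) _ => q / ((23 : ℕ) : ℚ) ∈ II ρ ((1 / (23 : ℕ) : ℚ) • β) x L)
        ?_ (by simp) (fun _ _ _ _ a b => by rw [add_div]; exact add_mem a b)
        (fun _ _ a => by rw [neg_div]; exact neg_mem a) hI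
      rintro _ ⟨y, hy, z, hz, rfl⟩
      exact AddSubgroup.subset_closure ⟨y, hy, z, hz, by
        simp only [LinearMap.smul_apply, smul_eq_mul]; ring⟩
  have rad : ∀ p : ℕ, p.Prime → p ≠ 23 → ∀ y ∈ L, Du β L ((1 / p : ℚ) • y) →
      ∃ k : ℤ, ∃ l ∈ L, y = (k : ℚ) • v + (p : ℚ) • l := fun p hp h23 y hy hP => by
    have hp0 : (p : ℚ) ≠ 0 := by exact_mod_cast hp.ne_zero
    have no : ¬ ∀ y ∈ L, Du β L ((1 / p : ℚ) • ss ρ x y) := fun hall => by
      obtain ⟨L', a, b⟩ := shrink h hL hx hp h23 hall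
      exact nosh p hp L' a (b _ hI)
    by_cases hpm : p ∣ m
    · exact (rad_small h hL hx hp (h.prime_le hi hp (hm ▸ hpm.mul_left 23)) h23 hv hxv prim hT).resolve_left
        no y hy hP
    · exact ⟨0, _, (hL.irr_mod h hp hm hpm hy hP).resolve_right fun hall => no fun y hy =>
        hall _ (hL.ss hy), by simp [smul_smul, hp0]⟩
  obtain ⟨a, ha, hTa⟩ : ∃ a ∈ L, TT ρ x a = v := by
    obtain ⟨e, f, he, hf, h1, -⟩ := h.exists_dual L
    obtain ⟨a, ha, e1⟩ := sum_eq_TT (ρ := ρ) (L := L) ho (fun g => β (ρ g (f 0)) v • ρ g (e 0))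
      (fun g => ((hf 0).map h hL g v hv).smul (hL.inv g _ (he 0))) fun g => by
        rw [map_smul, map_mul, End.mul_apply, End.mul_apply]
        conv_lhs => rw [← hxv, h.inv]
    rw [h.fourier, h1, ← Nat.card_eq_fintype_card, hm] at e1
    obtain ⟨s, t, e2⟩ : IsCoprime (m : ℤ) 23 := by
      have := Nat.isCoprime_iff_coprime.2 ((Nat.Prime.coprime_iff_not_dvd (by norm_num)).2 hm23)
      exact_mod_cast this.symm
    have e3 : (s : ℚ) * m + t * 23 = 1 := by exact_mod_cast e2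
    refine ⟨(s : ℚ) • a + (t : ℚ) • v, L.add_mem ((IZ.int s).smul ha) ((IZ.int t).smul hv), ?_⟩
    rw [map_add, map_smul, map_smul, ← e1, TT_fix hxv]
    push_cast
    linear_combination (norm := module) e3 • v
  obtain ⟨D, hD⟩ := hL.du h ha v hv
  have hND : β v v = 23 * D := by rw [← hD, ← h.TT_b hx hxv, hTa]
  have D0 : 0 < D := by have : (0 : ℚ) < D := by linarith
                        exact_mod_cast this
  lift D to ℕ using D0.le
  rw [Int.cast_natCast] at hD hND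
  have D1 : (D : ℚ) ≠ 0 := by exact_mod_cast D0.ne'
  have hb : ∀ y ∈ L, ∃ k : ℤ, β v y = k * D := fun y hy => by
    obtain ⟨k, hk⟩ := hT y hy
    have := h.TT_b hx hxv y
    rw [hk, map_smul, LinearMap.smul_apply, hND, smul_eq_mul] at this
    exact ⟨k, by rw [h.symm]; linarith⟩
  have hu : Du β L ((1 / D : ℚ) • v) := fun y hy => by
    obtain ⟨k, hk⟩ := hb y hy
    exact ⟨k, by rw [map_smul, LinearMap.smul_apply, hk, smul_eq_mul]; field_simp⟩
  have d1 : ∀ n : ℕ, 0 < n → ∀ z, Du β L z → TT ρ x z = 0 → (n : ℚ) • z ∈ L → z ∈ L := fun n => by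
    induction n using Nat.strong_induction_on with
    | _ n ih =>
    intro hn z hz hTz hnz
    rcases eq_or_ne n 1 with rfl | hn1
    · simpa using hnz
    obtain ⟨p, hp, n', rfl⟩ := Nat.exists_prime_and_dvd hn1
    have hp0 : (p : ℚ) ≠ 0 := by exact_mod_cast hp.ne_zero
    have e : (1 / p : ℚ) • ((p * n' : ℕ) : ℚ) • z = (n' : ℚ) • z := by
      rw [smul_smul]; congr 1; push_cast; field_simp
    have hP : Du β L ((1 / p : ℚ) • ((p * n' : ℕ) : ℚ) • z) := e ▸ hz.smul (IZ.nat n')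
    refine ih n' (lt_mul_of_one_lt_left (Nat.pos_of_mul_pos_left hn) hp.one_lt) (Nat.pos_of_mul_pos_left hn)
      z hz hTz (e ▸ ?_)
    rcases eq_or_ne p 23 with rfl | h23
    · exact r23 _ hnz hP
    obtain ⟨k, l, hl, e1⟩ := rad p hp h23 _ hnz hP
    obtain ⟨j, hj⟩ := hT l hl
    have e2 := congrArg (TT ρ x) e1
    rw [map_smul, hTz, map_add, map_smul, map_smul, hj, TT_fix hxv, smul_zero, smul_smul, smul_smul,
      ← add_smul, eq_comm, smul_eq_zero] at e2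
    have e3 := e2.resolve_right v0
    have hc : IsCoprime (23 : ℤ) p := by
      have := Nat.isCoprime_iff_coprime.2 ((Nat.coprime_primes (by norm_num) hp).2 h23.symm)
      exact_mod_cast this
    have e4 : IZ (k / p) := IZ.of_cop hc ((IZ.int (-j)).congr (by push_cast; field_simp; linarith))
      ((IZ.int k).congr (by push_cast; field_simp))
    rw [e1, smul_add, smul_smul, smul_smul, one_div_mul_cancel hp0, one_smul, one_div_mul_eq_div]
    exact L.add_mem (e4.smul hv) hl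
  have d2 : ∀ n : ℕ, 0 < n → ∀ z, Du β L z → (n : ℚ) • z ∈ L → ∃ n' : ℕ, ¬ 23 ∣ n' ∧ (n' : ℚ) • z ∈ L :=
    fun n => by
    induction n using Nat.strong_induction_on with
    | _ n ih =>
    intro hn z hz hnz
    by_cases hd : 23 ∣ n
    · obtain ⟨n', rfl⟩ := hd
      have e : (1 / (23 : ℕ) : ℚ) • ((23 * n' : ℕ) : ℚ) • z = (n' : ℚ) • z := by
        rw [smul_smul]; congr 1; push_cast; field_simp
      exact ih n' (by omega) (by omega) z hz (e ▸ r23 _ hnz (e ▸ hz.smul (IZ.nat n')))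
    · exact ⟨n, hd, hnz⟩
  have dual : ∀ y, Du β L y ↔ ∃ k : ℤ, y - (k : ℚ) • (1 / D : ℚ) • v ∈ L := fun y => by
    refine ⟨fun hy => ?_, fun ⟨k, hk⟩ => ?_⟩
    · obtain ⟨n, hn, hny⟩ := exists_den L hr y
      obtain ⟨n', hn', hny'⟩ := d2 n hn y hy hny
      obtain ⟨j, hj⟩ := hy v hv
      have e : TT ρ x y = (j : ℚ) • (1 / D : ℚ) • v := by
        rw [h.TT_eq hx hx1 v0 hxv, hj, hND, smul_smul]; congr 1; field_simp
      obtain ⟨n2, hn2, hz⟩ := exists_den L hr ((23 : ℚ) • y - TT ρ x y)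
      have := d1 n2 hn2 _ ((hy.smul (IZ.nat 23)).sub (e ▸ hu.smul (IZ.int j))) (by
        rw [map_sub, map_smul, TT_fix (x_TT hx y)]; exact sub_self _) hz
      obtain ⟨s, t, e2⟩ : IsCoprime (n' : ℤ) 23 := by
        have := Nat.isCoprime_iff_coprime.2 ((Nat.Prime.coprime_iff_not_dvd (by norm_num)).2 hn')
        exact_mod_cast this.symm
      have e3 : (s : ℚ) * n' + t * 23 = 1 := by exact_mod_cast e2
      refine ⟨t * j, ?_⟩
      convert L.add_mem ((IZ.int s).smul hny') ((IZ.int t).smul this) using 1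
      rw [e]; push_cast
      linear_combination (norm := module) (-e3) • y
    · have := (hL.du h hk).add (hu.smul (IZ.int k))
      rwa [sub_add_cancel] at this
  refine ⟨β, x, L, (1 / D : ℚ) • v, D, h, hL, hx, hx1, by rw [map_smul, hxv], ?_, by exact_mod_cast D0,
    dual, fun q => ?_, ?_, ?_, ?_⟩
  · simp only [map_smul, LinearMap.smul_apply, smul_eq_mul, hND]; field_simp
  · rw [smul_smul, mul_one_div]; exact ⟨prim _, fun hq => hq.smul hv⟩
  · obtain ⟨k, hk⟩ := hL.ev v hv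
    have : (23 * D : ℤ) = 2 * k := Int.cast_injective (α := ℚ) (by push_cast; rw [← hk, hND]; ring)
    omega
  · rintro ⟨E, rfl⟩
    have e0 : (1 / 2 : ℚ) • v = ((4 * E : ℕ) : ℚ) • (1 / (8 * E : ℕ) : ℚ) • v := by
      have : (E : ℚ) ≠ 0 := fun e => D1 (by push_cast; rw [e, mul_zero])
      rw [smul_smul]; congr 1; push_cast; field_simp; norm_num
    have hM : ∀ y, y ∈ L ⊔ Submodule.span ℤ {(1 / 2 : ℚ) • v} ↔
        ∃ l ∈ L, ∃ k : ℤ, y = l + (k : ℚ) • (1 / 2 : ℚ) • v := fun y => by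
      simp only [Submodule.mem_sup, Submodule.mem_span_singleton, Int.cast_smul_eq_zsmul]
      exact ⟨fun ⟨l, hl, _, ⟨k, rfl⟩, e⟩ => ⟨l, hl, k, e.symm⟩, fun ⟨l, hl, k, e⟩ => ⟨l, hl, _, ⟨k, rfl⟩, e.symm⟩⟩
    refine nosm (L ⊔ Submodule.span ℤ {(1 / 2 : ℚ) • v}) ⟨Submodule.IsLattice.of_le_of_isLattice_of_fg ℚ
      le_sup_left ((Submodule.IsLattice.fg (A := ℚ)).sup (Submodule.fg_span_singleton _)), fun g y hy => ?_,
      fun y hy => ?_⟩ le_sup_left (1 / 2) (by norm_num) (by norm_num)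
      (Submodule.mem_sup_right (Submodule.mem_span_singleton_self _))
    · obtain ⟨l, hl, k, rfl⟩ := (hM y).1 hy
      obtain ⟨j, hj⟩ := (dual _).1 (hu.map h hL g)
      refine (hM _).2 ⟨_, L.add_mem (hL.inv g l hl) (((IZ.int k).mul (IZ.nat (4 * E))).smul hj), k * j, ?_⟩
      rw [e0, map_add, map_smul, map_smul]; push_cast; module
    · obtain ⟨l, hl, k, rfl⟩ := (hM y).1 hy
      obtain ⟨j, hj⟩ := hb l hl
      refine ((hL.ev l hl).add (IZ.int (k * j * 4 * E + k * k * 23 * E))).congr ?_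
      simp only [map_add, map_smul, LinearMap.add_apply, LinearMap.smul_apply, smul_eq_mul, h.symm l v, hj, hND]
      push_cast; ring
  · rintro ⟨E, rfl⟩
    obtain ⟨k, hk⟩ := prim _ (r23 v hv fun y hy => by
      obtain ⟨j, hj⟩ := hb y hy
      exact ⟨j * E, by rw [map_smul, LinearMap.smul_apply, hj, smul_eq_mul]; push_cast; ring⟩)
    have : (1 : ℤ) = 23 * k := Int.cast_injective (α := ℚ) (by push_cast; rw [← hk]; norm_num)
    omega

end CF.Feit
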