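import Cfsg.Agent.Feit.C

/-! The case without roots orthogonal to the fixed vector. -/

set_option autoImplicit false
set_option linter.style.haveILetI false

namespace CF.Feit

open Module
open scoped Pointwise

variable {G V : Type*} [Group G] [AddCommGroup V] [Module ℚ V]

theorem pair_eq {a b : V} : ({a, -a} : Set V) = {b, -b} ↔ a = b ∨ a = -b := by
  constructor
  · intro e
    have : a ∈ ({b, -b} : Set V) := e ▸ Set.mem_insert _ _
    simpa using this
  · rintro (rfl | rfl)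
    · rfl
    · rw [neg_neg, Set.pair_comm]

theorem exists_index (ρ : G →* End ℚ V) {ι : Type*} [Fintype ι] (y : V) (f : ι → V)
    (h1 : ∀ g, ∃ i, ρ g y = f i ∨ ρ g y = -f i) (h2 : ∀ i, ∃ g, ρ g y = f i ∨ ρ g y = -f i)
    (h3 : ∀ i j, f i = f j ∨ f i = -f j → i = j) : ∃ H : Subgroup G, H.index = Fintype.card ι := by
  letI : MulAction G V := MulAction.compHom V ρ
  have e : ∀ g : G, g • ({y, -y} : Set V) = {ρ g y, -ρ g y} := fun g => by
    rw [← map_neg, ← Set.image_smul, Set.image_pair]; rfl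
  refine ⟨MulAction.stabilizer G ({y, -y} : Set V), ?_⟩
  rw [MulAction.index_stabilizer]
  have : MulAction.orbit G ({y, -y} : Set V) = Set.range fun i => ({f i, -f i} : Set V) := by
    ext s
    constructor
    · rintro ⟨g, rfl⟩
      obtain ⟨i, hi⟩ := h1 g
      exact ⟨i, ((e g).trans (pair_eq.2 hi)).symm⟩
    · rintro ⟨i, rfl⟩
      obtain ⟨g, hg⟩ := h2 i
      exact ⟨g, (e g).trans (pair_eq.2 hg)⟩
  rw [this, Set.ncard_range_of_injective fun i j e => h3 i j (pair_eq.1 e), Nat.card_eq_fintype_card]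

/-- Test vector. -/
def tf (i : ZMod 23) : ℤ :=
  [2, 2, 2, 1, 1, 0, 0, -1, -1, -2, -2, -2, -2, -2, -2, -1, -1, 0, 0, 1, 1, 2, 2].getD i.val 0

/-- Its autocorrelation. -/
def tR (i : ZMod 23) : ℤ :=
  [52, 48, 44, 34, 24, 10, -3, -17, -29, -39, -46, -50, -50, -46, -39, -29, -17, -3, 10, 24, 34, 44,
    48].getD i.val 0

theorem tR_eq : ∀ d : ZMod 23, ∑ i, tf i * tf (i + d) = tR d := by decide +kernel

/-- The forbidden circulants. -/
def cc (a b i : ZMod 23) : ℤ :=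
  if i = 0 then 23 else if i = a ∨ i = -a ∨ i = b ∨ i = -b then -7 else 3

theorem cc_neg : ∀ a b : ZMod 23, a ≠ 0 → b ≠ 0 → b ≠ a → b ≠ -a →
    ∃ m : ZMod 23, ∑ d, cc a b (m * d) * tR d < 0 := by decide +kernel

theorem circ10 (c : ZMod 23 → ℤ) (h0 : c 0 = 23) (hs : ∀ i, c (-i) = c i)
    (hv : ∀ i, i ≠ 0 → c i = 3 ∨ c i = -7) (hsum : ∑ i, c i = 49)
    (hp : ∀ m : ZMod 23, 0 ≤ ∑ i, ∑ l, tf i * tf l * c (m * l - m * i)) : False := by
  classical
  let S := Finset.univ.filter fun i => c i = -7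
  have hS : ∀ i, i ∈ S ↔ c i = -7 := fun i => by simp [S]
  have e1 : ∀ i, c i = 3 + (if i = 0 then 20 else 0) - 10 * (if c i = -7 then 1 else 0) := fun i => by
    rcases eq_or_ne i 0 with rfl | hi
    · simp [h0]
    · rcases hv i hi with e | e <;> simp [e, hi]
  have hc : S.card = 4 := by
    rw [Finset.sum_congr rfl fun i _ => e1 i, Finset.sum_sub_distrib, Finset.sum_add_distrib,
      ← Finset.mul_sum, Finset.sum_boole] at hsum
    simp only [Finset.sum_const, Finset.card_univ, ZMod.card, Finset.sum_ite_eq', Finset.mem_univ,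
      if_true, nsmul_eq_mul] at hsum
    have : (S.card : ℤ) = 4 := by simp only [S]; push_cast at hsum; linarith
    exact_mod_cast this
  have hn : ∀ i : ZMod 23, i ≠ 0 → i ≠ -i := by decide
  have h00 : ∀ i ∈ S, i ≠ 0 := fun i hi e => by rw [hS, e, h0] at hi; omega
  obtain ⟨a, ha⟩ := Finset.card_pos.1 (show 0 < S.card by omega)
  obtain ⟨b, hb, hb'⟩ := Finset.exists_mem_notMem_of_card_lt_card (s := {a, -a}) (t := S)
    (lt_of_le_of_lt Finset.card_le_two (by omega))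
  simp only [Finset.mem_insert, Finset.mem_singleton, not_or] at hb'
  have e2 : ({a, -a, b, -b} : Finset (ZMod 23)) = S := by
    refine Finset.eq_of_subset_of_card_le (fun i hi => ?_) (hc.trans (Finset.card_eq_four.2 ⟨_, _, _, _,
      hn a (h00 a ha), Ne.symm hb'.1, fun e => hb'.2 (by rw [e, neg_neg]), Ne.symm hb'.2,
      fun e => hb'.1 (neg_injective e).symm, hn b (h00 b hb), rfl⟩).symm).le
    simp only [Finset.mem_insert, Finset.mem_singleton] at hi
    rcases hi with rfl | rfl | rfl | rfl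
    exacts [ha, (hS _).2 ((hs _).trans ((hS _).1 ha)), hb, (hS _).2 ((hs _).trans ((hS _).1 hb))]
  have e3 : ∀ i, c i = cc a b i := fun i => by
    have : c i = -7 ↔ i = a ∨ i = -a ∨ i = b ∨ i = -b := by rw [← hS, ← e2]; simp
    unfold cc
    split_ifs with k1 k2
    · rw [k1, h0]
    · exact this.2 k2
    · exact (hv i k1).resolve_right fun e => k2 (this.1 e)
  obtain ⟨m, hm⟩ := cc_neg a b (h00 a ha) (h00 b hb) hb'.1 hb'.2
  refine absurd (hp m) (not_le.2 (lt_of_eq_of_lt ?_ hm))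
  simp only [← tR_eq, Finset.mul_sum]
  rw [Finset.sum_comm (f := fun d i => cc a b (m * d) * (tf i * tf (i + d)))]
  refine Finset.sum_congr rfl fun i _ => (Fintype.sum_equiv (Equiv.addLeft i) _ _ fun d => ?_).symm
  rw [Equiv.coe_addLeft, e3, show m * (i + d) - m * i = m * d by ring]; ring

variable {ρ : G →* End ℚ V} {β : LinearMap.BilinForm ℚ V} {L : Submodule ℤ V} {x : G} {u : V} {D : ℕ}

theorem Rp.eq_of (h : Rp ρ β) {y z : V} (e : β z z = β y y) (k : β y z = β y y) : y = z :=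
  sub_eq_zero.1 (h.eq_zero (by simp only [map_sub, LinearMap.sub_apply, h.symm z y, e, k]; ring))

theorem Rp.eq_neg_of (h : Rp ρ β) {y z : V} (e : β z z = β y y) (k : β y z = -β y y) : y = -z :=
  h.eq_of (by simpa using e) (by simp [k])

namespace Ctx
variable (h : Ctx ρ β x L u D)
include h

theorem Dq : (0 : ℚ) < D := by exact_mod_cast h.D0

theorem u0 : u ≠ 0 := fun e => by
  have := h.nu
  rw [e, map_zero] at this
  exact (div_pos (by norm_num) h.Dq).ne this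

theorem TT_eq (y : V) : TT ρ x y = (D * β y u) • u := by
  rw [h.rp.TT_eq h.hx h.hx1 h.u0 h.fix, h.nu]
  congr 1; have := h.Dq; field_simp

theorem fix_eq {y : V} (hy : ρ x y = y) : y = (D * β y u / 23) • u := by
  conv_lhs => rw [h.rp.fix_mul h.hx h.hx1 h.u0 h.fix hy, h.nu]
  congr 1; have := h.Dq; field_simp

theorem du : Du β L u := (h.dual u).2 ⟨1, by simp⟩

theorem jZ {y : V} (hy : Du β L y) : IZ (D * β y u) :=
  (hy _ ((h.ord D).2 ⟨1, by simp [h.Dq.ne']⟩)).congr (by simp)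

theorem bZ {y : V} (hy : y ∈ L) : IZ (β y u) := (h.du y hy).congr (h.rp.symm _ _)

theorem line {q : ℚ} (hq : Du β L (q • u)) : IZ q := by
  obtain ⟨k, hk⟩ := (h.dual _).1 hq
  rw [← sub_smul, h.ord] at hk
  exact (((IZ.nat D).mul hk).add (IZ.int k)).congr (by have := h.Dq; field_simp; ring)

theorem sub_XX {y : V} (hy : Du β L y) (i : ZMod 23) : y - XX ρ x i y ∈ L := by
  obtain ⟨k, hk⟩ := (h.dual _).1 hy
  convert L.sub_mem hk (h.lt.XX x i hk) using 1
  rw [map_sub, map_smul, XX_fix h.fix]; abel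

theorem sum_b (y z : V) : ∑ i, β y (XX ρ x i z) = D * β y u * β z u := by
  rw [← map_sum, ← TT_apply, h.TT_eq, map_smul, smul_eq_mul]; ring

theorem norm_sub (y : V) (i : ZMod 23) :
    β (y - XX ρ x i y) (y - XX ρ x i y) = 2 * (β y y - β y (XX ρ x i y)) := by
  simp only [map_sub, LinearMap.sub_apply, h.rp.XX_inv, h.rp.symm (XX ρ x i y) y]; ring

theorem eZ {y : V} (hy : Du β L y) (i : ZMod 23) : IZ (β y y - β y (XX ρ x i y)) :=
  (h.lt.ev _ (h.sub_XX hy i)).congr (by rw [h.norm_sub]; ring)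

theorem nonfix : ∃ g, ρ x (ρ g u) ≠ ρ g u := by
  obtain ⟨g, hg⟩ := h.rp.not_line u h.u0
  exact ⟨g, fun e => hg (Submodule.mem_span_singleton.2 ⟨_, (h.fix_eq e).symm⟩)⟩

theorem fix_pm {y : V} (hy : ρ x y = y) (hn : β y y = β u u) : y = u ∨ y = -u := by
  have e := h.fix_eq hy
  generalize D * β y u / 23 = q at e
  subst e
  simp only [map_smul, LinearMap.smul_apply, smul_eq_mul] at hn
  have : (q - 1) * (q + 1) = 0 := mul_right_cancel₀ (h.rp.pos u h.u0).ne' (by linear_combination hn)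
  rcases mul_eq_zero.1 this with e | e
  · left; rw [sub_eq_zero.1 e, one_smul]
  · right; rw [eq_neg_of_add_eq_zero_left e, neg_one_smul]

theorem idx23 {y : V} (hy : ρ x y ≠ y) (k : ∀ g, ∃ i, ρ g y = XX ρ x i y ∨ ρ g y = -XX ρ x i y) :
    ∃ H : Subgroup G, H.index = 23 :=
  exists_index ρ y (fun i => XX ρ x i y) k (fun _ => ⟨_, Or.inl rfl⟩) fun _ _ e => XX_ne h.hx hy e

theorem idx24 {g0 : G} (hy : ρ x (ρ g0 u) ≠ ρ g0 u) (k : ∀ g, ρ x (ρ g u) ≠ ρ g u →
    ∃ i, ρ g u = XX ρ x i (ρ g0 u) ∨ ρ g u = -XX ρ x i (ρ g0 u)) : ∃ H : Subgroup G, H.index = 24 := by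
  have h0 : ∀ i, ¬ (u = XX ρ x i (ρ g0 u) ∨ u = -XX ρ x i (ρ g0 u)) := fun i e => by
    apply hy
    have e1 : ρ g0 u = XX ρ x (-i) (XX ρ x i (ρ g0 u)) := by
      rw [← XX_add h.hx, neg_add_cancel, XX_zero]
    rcases e with e | e
    · rw [e1, ← e, XX_fix h.fix, h.fix]
    · rw [e1, ← neg_eq_iff_eq_neg.2 e, map_neg, XX_fix h.fix, map_neg, h.fix]
  refine exists_index ρ (ι := Option (ZMod 23)) u (fun o => o.elim u fun i => XX ρ x i (ρ g0 u))
    (fun g => ?_) (fun o => ?_) fun a b e => ?_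
  · by_cases e : ρ x (ρ g u) = ρ g u
    · exact ⟨none, h.fix_pm e (h.rp.inv g u u)⟩
    · obtain ⟨i, hi⟩ := k g e
      exact ⟨some i, hi⟩
  · rcases o with _ | i
    · exact ⟨1, Or.inl (by simp)⟩
    · exact ⟨x ^ i.val * g0, Or.inl (by rw [map_mul]; rfl)⟩
  · rcases a with _ | i <;> rcases b with _ | j
    · rfl
    · exact absurd e (h0 j)
    · exact absurd (e.imp Eq.symm fun e => (neg_eq_iff_eq_neg.2 e).symm) (h0 i)
    · exact congrArg some (XX_ne h.hx hy e)

variable (nr : ∀ r ∈ L, β r u = 0 → β r r ≠ 2)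
include nr

theorem two_le {y : V} (hy : Du β L y) (hf : ρ x y ≠ y) {i : ZMod 23} (hi : i ≠ 0) :
    2 ≤ β y y - β y (XX ρ x i y) := by
  obtain ⟨e, he⟩ := h.eZ hy i
  have h1 := h.rp.pos (y - XX ρ x i y) fun e => hf (fix_of_XX h.hx hi (sub_eq_zero.1 e).symm)
  have h2 := nr _ (h.sub_XX hy i) (by
    rw [map_sub, LinearMap.sub_apply, sub_eq_zero]
    conv_rhs => rw [← XX_fix h.fix i, h.rp.XX_inv])
  rw [h.norm_sub, he] at h1 h2
  have h3 : 0 < 2 * e := by exact_mod_cast h1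
  have h4 : 2 * e ≠ 2 := by exact_mod_cast h2
  rw [he]; exact_mod_cast (show 2 ≤ e by omega)

omit nr in
theorem sum_e (y : V) : ∑ i ∈ Finset.univ.erase 0, (β y y - β y (XX ρ x i y) - 2) =
    23 * β y y - D * β y u ^ 2 - 44 := by
  rw [Finset.sum_erase_eq_sub (Finset.mem_univ _), Finset.sum_sub_distrib, Finset.sum_sub_distrib, h.sum_b,
    XX_zero]
  simp only [Finset.sum_const, Finset.card_univ, ZMod.card, nsmul_eq_mul]
  push_cast; ring

theorem bound {y : V} (hy : Du β L y) (hf : ρ x y ≠ y) : 44 ≤ 23 * β y y - D * β y u ^ 2 := by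
  have := Finset.sum_nonneg (s := Finset.univ.erase 0) (f := fun i => β y y - β y (XX ρ x i y) - 2)
    fun i hi => sub_nonneg.2 (h.two_le nr hy hf (Finset.ne_of_mem_erase hi))
  rw [h.sum_e] at this
  linarith

omit nr in
theorem boundZ {y : V} (hy : Du β L y) : IZ (23 * β y y - D * β y u ^ 2) :=
  ((IZ.sum (Finset.univ.erase 0) fun i _ => (h.eZ hy i).sub (IZ.nat 2)).add (IZ.nat 44)).congr (by
    have := h.sum_e y
    push_cast; linarith)

theorem D_le : D ≤ 12 := by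
  obtain ⟨g, hg⟩ := h.nonfix
  have := h.bound nr (h.du.map h.rp h.lt g) hg
  rw [h.rp.inv, h.nu] at this
  have h1 := mul_nonneg h.Dq.le (sq_nonneg (β (ρ g u) u))
  have h2 : (44 : ℚ) ≤ 23 * (23 / D) := by linarith
  rw [← mul_div_assoc, le_div_iff₀ h.Dq] at h2
  have : 44 * D ≤ 23 * 23 := by exact_mod_cast h2
  omega

theorem jv (g : G) : ∃ j : ℤ, D * β (ρ g u) u = j ∧ ((ρ g u = u ∧ j = 23) ∨ (ρ g u = -u ∧ j = -23) ∨
    (ρ x (ρ g u) ≠ ρ g u ∧ 44 * D + j ^ 2 ≤ 529 ∧ (D : ℤ) ∣ 529 - j ^ 2)) := by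
  have hd := h.du.map h.rp h.lt g
  have hD := h.Dq
  obtain ⟨j, hj⟩ := h.jZ hd
  refine ⟨j, hj, ?_⟩
  by_cases e : ρ x (ρ g u) = ρ g u
  · rcases h.fix_pm e (h.rp.inv g u u) with e1 | e1
    · refine Or.inl ⟨e1, Int.cast_injective (α := ℚ) ?_⟩
      rw [← hj, e1, h.nu]; push_cast; field_simp
    · refine Or.inr (Or.inl ⟨e1, Int.cast_injective (α := ℚ) ?_⟩)
      rw [← hj, e1, map_neg, LinearMap.neg_apply, h.nu]; push_cast; field_simp
  · have e1 : 23 * β (ρ g u) (ρ g u) - D * β (ρ g u) u ^ 2 = (529 - j ^ 2) / D := by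
      rw [h.rp.inv, h.nu, ← hj]; field_simp; norm_num
    have b1 := h.bound nr hd e
    obtain ⟨k, hk⟩ := h.boundZ hd
    rw [e1, le_div_iff₀ hD] at b1
    rw [e1, div_eq_iff hD.ne'] at hk
    refine Or.inr (Or.inr ⟨e, ?_, k, ?_⟩)
    · have : (44 : ℚ) * D + j ^ 2 ≤ 529 := by linarith
      exact_mod_cast this
    · rw [mul_comm] at hk; exact_mod_cast hk

omit nr in
theorem b_mul (g g' : G) : β (ρ g u) (ρ g' u) = β (ρ (g'⁻¹ * g) u) u := by
  rw [map_mul, End.mul_apply, h.rp.symm, h.rp.inv', h.rp.symm]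

omit nr in
theorem of_mul {g g' : G} {y z : V} (e : ρ (g'⁻¹ * g) y = z) : ρ g y = ρ g' z := by
  rw [← e, ← End.mul_apply, ← map_mul, mul_inv_cancel_left]

theorem case12 (hD : D = 12) : ∃ H : Subgroup G, H.index = 24 := by
  subst hD
  obtain ⟨g0, h0⟩ := h.nonfix
  have k1 : ∀ g, ρ x (ρ g u) ≠ ρ g u → ∃ j : ℤ, 12 * β (ρ g u) u = j ∧ j ^ 2 = 1 := fun g hg => by
    obtain ⟨j, hj, e | e | ⟨-, e1, e2⟩⟩ := h.jv nr g
    · exact absurd (by rw [e.1, h.fix]) hg
    · exact absurd (by rw [e.1, map_neg, h.fix]) hg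
    · refine ⟨j, by exact_mod_cast hj, ?_⟩
      have := sq_nonneg j
      push_cast at e1 e2; omega
  refine h.idx24 h0 fun g hg => ?_
  by_contra hc
  push Not at hc
  have k2 : ∀ i, ∃ j : ℤ, 12 * β (ρ g u) (XX ρ x i (ρ g0 u)) = j ∧ (j = 1 ∨ j = -1) := fun i => by
    have e0 : XX ρ x i (ρ g0 u) = ρ (x ^ i.val * g0) u := by rw [map_mul]; rfl
    have hf : ρ x (ρ ((x ^ i.val * g0)⁻¹ * g) u) ≠ ρ ((x ^ i.val * g0)⁻¹ * g) u := fun e => by
      rcases h.fix_pm e (h.rp.inv _ u u) with e1 | e1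
      · exact (hc i).1 (e0 ▸ h.of_mul e1)
      · exact (hc i).2 (by rw [e0, h.of_mul e1, map_neg])
    obtain ⟨j, e1, e2⟩ := k1 _ hf
    exact ⟨j, by rw [e0, h.b_mul, e1], mul_self_eq_one_iff.1 (by rw [← sq, e2])⟩
  choose a ha hb using k2
  have k3 : ∀ i, a i = a 0 := fun i => by
    obtain ⟨k, hk⟩ := (h.du.map h.rp h.lt g) _ (h.sub_XX (h.du.map h.rp h.lt g0) i)
    have : (a 0 : ℚ) - a i = 12 * k := by rw [← ha, ← ha, ← hk, map_sub, XX_zero]; ring
    have : a 0 - a i = 12 * k := by exact_mod_cast this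
    rcases hb i with e | e <;> rcases hb 0 with e' | e' <;> omega
  obtain ⟨j, e1, e2⟩ := k1 g hg
  obtain ⟨j0, e3, e4⟩ := k1 g0 h0
  have s := h.sum_b (ρ g u) (ρ g0 u)
  have s2 : ∑ i, 12 * β (ρ g u) (XX ρ x i (ρ g0 u)) = j * j0 := by
    rw [← Finset.mul_sum, s, ← e1, ← e3]; push_cast; ring
  simp only [ha, k3, Finset.sum_const, Finset.card_univ, ZMod.card, nsmul_eq_mul] at s2
  have s3 : 23 * a 0 = j * j0 := by exact_mod_cast s2
  have s4 : (j * j0) ^ 2 = 1 := by rw [mul_pow, e2, e4, one_mul]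
  rw [← s3] at s4
  rcases hb 0 with e | e <;> rw [e] at s4 <;> norm_num at s4

theorem case10 (hD : D = 10) : False := by
  subst hD
  have k1 : ∀ g, ∃ j : ℤ, 10 * β (ρ g u) u = j ∧ (j = 23 ∨ j = -23 ∨
      (ρ x (ρ g u) ≠ ρ g u ∧ (j = 3 ∨ j = -3 ∨ j = 7 ∨ j = -7))) := fun g => by
    obtain ⟨j, hj, e | e | ⟨e, e1, e2⟩⟩ := h.jv nr g
    · exact ⟨j, by exact_mod_cast hj, Or.inl e.2⟩
    · exact ⟨j, by exact_mod_cast hj, Or.inr (Or.inl e.2)⟩
    · refine ⟨j, by exact_mod_cast hj, Or.inr (Or.inr ⟨e, ?_⟩)⟩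
      push_cast at e1 e2
      have b1 : j ≤ 9 := by nlinarith
      have b2 : -9 ≤ j := by nlinarith
      interval_cases j <;> omega
  have k2 : ∀ g, ρ x (ρ g u) ≠ ρ g u → ∀ i, ∃ c : ℤ, 10 * β (ρ g u) (XX ρ x i (ρ g u)) = c ∧
      (i = 0 → c = 23) ∧ (i ≠ 0 → c = 3 ∨ (c = -7 ∧ ∃ g', ρ x (ρ g' u) ≠ ρ g' u ∧
        10 * β (ρ g' u) u = -7)) := fun g hg i => by
    have e0 : XX ρ x i (ρ g u) = ρ (x ^ i.val * g) u := by rw [map_mul]; rfl
    obtain ⟨j, e1, e2⟩ := k1 ((x ^ i.val * g)⁻¹ * g)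
    have e3 : 10 * β (ρ g u) (XX ρ x i (ρ g u)) = j := by rw [e0, h.b_mul, e1]
    have n0 : β (ρ g u) (ρ g u) = 23 / 10 := by rw [h.rp.inv, h.nu]; rfl
    refine ⟨j, e3, fun hi => Int.cast_injective (α := ℚ) ?_, fun hi => ?_⟩
    · rw [← e3, hi, XX_zero, n0]; norm_num
    · have b := h.two_le nr (h.du.map h.rp h.lt g) hg hi
      obtain ⟨k, hk⟩ := h.eZ (h.du.map h.rp h.lt g) i
      have b1 : (2 : ℚ) ≤ k := hk ▸ b
      have b2 : 2 ≤ k := by exact_mod_cast b1
      have b3 : (j : ℚ) = 23 - 10 * k := by rw [← e3, ← hk, n0]; ring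
      have b4 : j = 23 - 10 * k := by exact_mod_cast b3
      rcases e2 with e | e | ⟨e, e' | e' | e' | e'⟩
      any_goals omega
      exact Or.inr ⟨e', _, e, by rw [e1, e']; norm_num⟩
  have k3 : ∀ g, ∑ i, 10 * β (ρ g u) (XX ρ x i (ρ g u)) = (10 * β (ρ g u) u) ^ 2 := fun g => by
    rw [← Finset.mul_sum, h.sum_b]; push_cast; ring
  obtain ⟨g, hg, h7⟩ : ∃ g, ρ x (ρ g u) ≠ ρ g u ∧ 10 * β (ρ g u) u = -7 := by
    obtain ⟨g0, h0⟩ := h.nonfix
    by_contra hc
    choose c e1 e2 e3 using k2 g0 h0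
    have s := k3 g0
    obtain ⟨j, e4, e5⟩ := k1 g0
    simp only [e1, e4] at s
    have s1 : ∑ i, c i = j ^ 2 := by exact_mod_cast s
    have e6 : ∀ i, c i = 3 + if i = 0 then 20 else 0 := fun i => by
      split_ifs with hi
      · exact e2 i hi
      · exact (e3 i hi).resolve_right fun e => hc e.2
    simp only [e6, Finset.sum_add_distrib, Finset.sum_const, Finset.card_univ, ZMod.card,
      Finset.sum_ite_eq', Finset.mem_univ, if_true] at s1
    rcases e5 with e | e | ⟨-, e | e | e | e⟩ <;> rw [e] at s1 <;> norm_num at s1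
  choose c e1 e2 e3 using k2 g hg
  refine circ10 c (e2 0 rfl) (fun i => Int.cast_injective (α := ℚ) ?_) (fun i hi => (e3 i hi).imp id And.left)
    (Int.cast_injective (α := ℚ) ?_) fun m => ?_
  · rw [← e1, ← e1, h.rp.XX_neg h.hx]
  · have := k3 g
    simp only [e1, h7] at this
    push_cast; rw [this]; norm_num
  · have := h.rp.nonneg (∑ i, (tf i : ℚ) • XX ρ x (m * i) (ρ g u))
    simp only [map_sum, map_smul, LinearMap.sum_apply, LinearMap.smul_apply, smul_eq_mul,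
      h.rp.XX_sub h.hx] at this
    have e : (10 : ℚ) * ∑ l, tf l * ∑ i, tf i * β (ρ g u) (XX ρ x (m * l - m * i) (ρ g u)) =
        ((∑ i, ∑ l, tf i * tf l * c (m * l - m * i) : ℤ) : ℚ) := by
      push_cast
      simp only [Finset.mul_sum, ← e1]
      rw [Finset.sum_comm]
      exact Finset.sum_congr rfl fun i _ => Finset.sum_congr rfl fun l _ => by ring
    have : (0 : ℚ) ≤ ((∑ i, ∑ l, tf i * tf l * c (m * l - m * i) : ℤ) : ℚ) := by rw [← e]; positivity
    exact_mod_cast this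

theorem case2 (hD : D = 2) {r : V} (hr : r ∈ L) (h2 : β r r = 2) : ∃ H : Subgroup G, H.index = 23 := by
  subst hD
  have k0 : ∀ y ∈ L, β y y = 2 → ρ x y ≠ y := fun y hy e hf => by
    have e1 := h.fix_eq hf
    obtain ⟨k, hk⟩ := h.line (e1 ▸ h.lt.du h.rp hy)
    rw [hk] at e1
    rw [e1] at e
    simp only [map_smul, LinearMap.smul_apply, smul_eq_mul, h.nu] at e
    have : 23 * (k * k) = 4 := Int.cast_injective (α := ℚ) (by push_cast at e ⊢; linarith)
    omega
  have k1 : ∀ y ∈ L, β y y = 2 → β y u = 1 ∨ β y u = -1 := fun y hy e => by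
    have b := h.bound nr (h.lt.du h.rp hy) (k0 y hy e)
    have n := fun e0 => nr y hy e0 e
    obtain ⟨k, hk⟩ := h.bZ hy
    rw [hk] at b n ⊢
    rw [e] at b
    have b1 : k ^ 2 ≤ 1 := by
      have : (k : ℚ) ^ 2 ≤ 1 := by push_cast at b; linarith
      exact_mod_cast this
    have n1 : k ≠ 0 := fun e => n (by simp [e])
    have b2 : k ≤ 1 := by nlinarith
    have b3 : -1 ≤ k := by nlinarith
    rcases (show k = 1 ∨ k = -1 by omega) with rfl | rfl <;> simp
  refine h.idx23 (k0 r hr h2) fun g => ?_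
  have hy := h.lt.inv g r hr
  have e : β (ρ g r) (ρ g r) = 2 := by rw [h.rp.inv, h2]
  generalize ρ g r = y at hy e
  obtain ⟨i, hi⟩ : ∃ i, β y (XX ρ x i r) ≠ 0 := by
    by_contra hc
    push Not at hc
    have := h.sum_b y r
    simp only [hc, Finset.sum_const_zero] at this
    rcases k1 y hy e with a | a <;> rcases k1 r hr h2 with b | b <;> rw [a, b] at this <;> norm_num at this
  refine ⟨i, ?_⟩
  have hz := h.lt.XX x i hr
  have e' : β (XX ρ x i r) (XX ρ x i r) = 2 := by rw [h.rp.XX_inv, h2]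
  generalize XX ρ x i r = z at hz e' hi
  obtain ⟨c, hc⟩ := h.lt.du h.rp hy z hz
  have n1 : β (y - z) (y - z) = 4 - 2 * c := by
    simp only [map_sub, LinearMap.sub_apply, h.rp.symm z y, e, e', hc]; ring
  have n2 : β (y + z) (y + z) = 4 + 2 * c := by
    simp only [map_add, LinearMap.add_apply, h.rp.symm z y, e, e', hc]; ring
  have b1 : c ≤ 2 := by
    have := h.rp.nonneg (y - z)
    have : (c : ℚ) ≤ 2 := by linarith
    exact_mod_cast this
  have b2 : -2 ≤ c := by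
    have := h.rp.nonneg (y + z)
    have : (-2 : ℚ) ≤ c := by linarith
    exact_mod_cast this
  have a := k1 y hy e
  have b := k1 z hz e'
  interval_cases c
  · exact Or.inr (eq_neg_of_add_eq_zero_left (h.rp.eq_zero (by rw [n2]; norm_num)))
  · have := k1 _ (L.add_mem hy hz) (by rw [n2]; norm_num)
    rw [map_add, LinearMap.add_apply] at this
    rcases a with a | a <;> rcases b with b | b <;> rw [a, b] at this <;> norm_num at this
  · exact absurd (by simpa using hc) hi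
  · have := k1 _ (L.sub_mem hy hz) (by rw [n1]; norm_num)
    rw [map_sub, LinearMap.sub_apply] at this
    rcases a with a | a <;> rcases b with b | b <;> rw [a, b] at this <;> norm_num at this
  · exact Or.inl (sub_eq_zero.1 (h.rp.eq_zero (by rw [n1]; norm_num)))

end Ctx

end CF.Feit
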