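import Cfsg.Agent.Feit.D

/-! The case of a root orthogonal to the fixed vector: the root lattice `A₂₂`. -/

set_option autoImplicit false
set_option linter.style.haveILetI false

namespace CF.Feit

open Module

/-- The Cartan matrix of the cycle. -/
def cyc (i : ZMod 23) : ℤ := if i = 0 then 2 else if i = 1 ∨ i = -1 then -1 else 0

/-- Kronecker delta. -/
def dl (i j : ZMod 23) : ℤ := if i = j then 1 else 0

theorem cyc1 : ∀ i k : ZMod 23, ∑ j : ZMod 23, (22 - j.val : ℤ) * cyc (k - (i + j)) =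
    23 * (dl k i - dl (k + 1) i) := by decide +kernel

theorem cyc2 : ∀ i k : ZMod 23, ∑ j : ZMod 23, (22 - j.val : ℤ) * (dl (k + j) i - dl (k + j + 1) i) =
    23 * dl i k - 1 := by decide +kernel

theorem cyc3 : ∀ i k : ZMod 23, (dl k i - dl (k + 1) i) - (dl k (i + 1) - dl (k + 1) (i + 1)) =
    cyc (k - i) := by decide +kernel

theorem small_F (m : ZMod 23 → ℤ) (hs : |∑ i, m i| ≤ 11) (hF : 23 * ∑ i, m i ^ 2 - (∑ i, m i) ^ 2 < 46) :
    (∀ i, m i = 0) ∨ (∃ i s, s ^ 2 = 1 ∧ ∀ j, m j = s * dl j i) ∨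
      (∑ i, m i ^ 2 = 2 ∧ ∃ i, m i ^ 2 = 1 ∧ ∑ j, m j = 2 * m i) := by
  have h1 : ∀ i, 0 ≤ m i ^ 2 - m i := fun i => by
    rcases (show m i ≤ 0 ∨ 1 ≤ m i by omega) with h | h <;> nlinarith
  have h2 : ∀ i, 0 ≤ m i ^ 2 + m i := fun i => by
    rcases (show m i ≤ -1 ∨ 0 ≤ m i by omega) with h | h <;> nlinarith
  have s1 := Finset.sum_nonneg fun i (_ : i ∈ Finset.univ) => h1 i
  have s2 := Finset.sum_nonneg fun i (_ : i ∈ Finset.univ) => h2 i
  have s3 : (2 : ℤ) ∣ ∑ i, (m i ^ 2 - m i) := Finset.dvd_sum fun i _ => by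
    rw [show m i ^ 2 - m i = (m i - 1) * (m i - 1 + 1) by ring]
    exact (Int.even_mul_succ_self _).two_dvd
  have z1 := (Finset.sum_eq_zero_iff_of_nonneg fun i (_ : i ∈ Finset.univ) => h1 i).1
  have z2 := (Finset.sum_eq_zero_iff_of_nonneg fun i (_ : i ∈ Finset.univ) => h2 i).1
  rw [Finset.sum_sub_distrib] at s1 s3 z1
  rw [Finset.sum_add_distrib] at s2 z2
  have one : ∑ i, m i ^ 2 = 1 → ∃ i s, s ^ 2 = 1 ∧ ∀ j, m j = s * dl j i := fun e => by
    obtain ⟨i, -, hi⟩ := Finset.exists_ne_zero_of_sum_ne_zero (e ▸ one_ne_zero : ∑ i, m i ^ 2 ≠ 0)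
    rw [← Finset.add_sum_erase _ _ (Finset.mem_univ i)] at e
    have p1 := Finset.sum_nonneg fun j (_ : j ∈ Finset.univ.erase i) => sq_nonneg (m j)
    have p2 : 0 < m i ^ 2 := lt_of_le_of_ne (sq_nonneg _) hi.symm
    refine ⟨i, m i, by omega, fun j => ?_⟩
    unfold dl
    split_ifs with hj
    · rw [hj, mul_one]
    · have p3 : ∑ j ∈ Finset.univ.erase i, m j ^ 2 = 0 := by omega
      exact (pow_eq_zero_iff two_ne_zero).1 ((Finset.sum_eq_zero_iff_of_nonneg
        fun j _ => sq_nonneg (m j)).1 p3 j (by simpa using hj)) |>.trans (mul_zero _).symm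
  have ex : ∑ i, m i ≠ 0 → ∃ i, m i ≠ 0 := fun e => by
    obtain ⟨i, -, hi⟩ := Finset.exists_ne_zero_of_sum_ne_zero e
    exact ⟨i, hi⟩
  have zero : ∑ i, m i ^ 2 = 0 → ∀ i, m i = 0 := fun e i => (pow_eq_zero_iff two_ne_zero).1
    ((Finset.sum_eq_zero_iff_of_nonneg fun j _ => sq_nonneg (m j)).1 e i (Finset.mem_univ _))
  generalize ∑ i, m i ^ 2 = s at *
  generalize ∑ i, m i = σ at *
  obtain ⟨b1, b2⟩ := abs_le.1 hs
  have c : (s = 0 ∧ σ = 0) ∨ s = 1 ∨ (s = 2 ∧ (σ = 2 ∨ σ = -2)) := by interval_cases σ <;> omega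
  rcases c with c | c | ⟨c, c' | c'⟩
  · exact Or.inl (zero c.1)
  · exact Or.inr (Or.inl (one c))
  · obtain ⟨i, hi⟩ := ex (by omega)
    have := z1 (by omega) i (Finset.mem_univ _)
    have : m i = 1 := mul_left_cancel₀ hi (by linarith)
    exact Or.inr (Or.inr ⟨c, i, by rw [this]; rfl, by omega⟩)
  · obtain ⟨i, hi⟩ := ex (by omega)
    have := z2 (by omega) i (Finset.mem_univ _)
    have : m i = -1 := mul_left_cancel₀ hi (by linarith)
    exact Or.inr (Or.inr ⟨c, i, by rw [this]; rfl, by omega⟩)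

variable {G V : Type*} [Group G] [AddCommGroup V] [Module ℚ V]
variable {ρ : G →* End ℚ V} {β : LinearMap.BilinForm ℚ V} {L : Submodule ℤ V} {x : G} {u : V} {D : ℕ}

/-- The weights of `A₂₂`. -/
structure Wt (ρ : G →* End ℚ V) (β : LinearMap.BilinForm ℚ V) (x : G) (L : Submodule ℤ V) (u : V)
    (d : ZMod 23) (ε : ZMod 23 → V) : Prop where
  sh : ∀ i k, XX ρ x (d * k) (ε i) = ε (i + k)
  gr : ∀ i k, β (ε i) (ε k) = dl i k - 1 / 23
  pu : ∀ i, β (ε i) u = 0
  mem : ∀ i, ε i - ε (i + 1) ∈ L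
  perp : ∀ z, β z u = 0 → (∀ i, β z (ε i - ε (i + 1)) = 0) → z = 0

namespace Ctx
variable (h : Ctx ρ β x L u D)
include h

theorem XX_u (i : ZMod 23) (y : V) : β (XX ρ x i y) u = β y u := by
  conv_lhs => rw [← XX_fix h.fix i, h.rp.XX_inv]

theorem good_root {r : V} (hr : r ∈ L) (h0 : β r u = 0) (h2 : β r r = 2) :
    ∃ r ∈ L, β r u = 0 ∧ β r r = 2 ∧ ∀ i, β r (XX ρ x i r) ≠ 1 := by
  by_contra hc
  push Not at hc
  let S : Subring (End ℚ V) :=
    { carrier := {f | ∀ y ∈ L, f y ∈ L}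
      mul_mem' := fun a b y hy => a _ (b y hy)
      one_mem' := fun y hy => hy
      add_mem' := fun a b y hy => L.add_mem (a y hy) (b y hy)
      zero_mem' := fun _ _ => L.zero_mem
      neg_mem' := fun a y hy => L.neg_mem (a y hy) }
  let f : S := ⟨ρ x, h.lt.inv x⟩
  have k : ∀ n : ℕ, ∃ w ∈ L, β (((1 - f) ^ n).1 w) u = 0 ∧ β (((1 - f) ^ n).1 w) (((1 - f) ^ n).1 w) = 2 := by
    intro n
    induction n with
    | zero => exact ⟨r, hr, h0, h2⟩
    | succ n ih =>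
      obtain ⟨w, hw, a, b⟩ := ih
      obtain ⟨i, hi⟩ := hc _ (((1 - f) ^ n).2 w hw) a b
      have e : (1 - f) ^ (n + 1) * ∑ j ∈ Finset.range i.val, f ^ j = (1 - f ^ i.val) * (1 - f) ^ n := by
        rw [pow_succ, mul_assoc, mul_neg_geom_sum]
        exact ((Commute.one_left _).sub_left ((Commute.one_right _).sub_right
          (Commute.self_pow f _))).pow_left n |>.eq
      have e1 : ((1 - f) ^ (n + 1)).1 ((∑ j ∈ Finset.range i.val, f ^ j).1 w) =
          ((1 - f) ^ n).1 w - XX ρ x i (((1 - f) ^ n).1 w) := by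
        have := congrArg (fun t : S => t.1 w) e
        simp only [MulMemClass.coe_mul, End.mul_apply] at this
        rw [this, XX, map_pow]; rfl
      refine ⟨_, (∑ j ∈ Finset.range i.val, f ^ j).2 w hw, ?_, ?_⟩
      · rw [e1, map_sub, LinearMap.sub_apply, h.XX_u, sub_self]
      · rw [e1, h.norm_sub, b, hi]; norm_num
  obtain ⟨w, hw, -, b⟩ := k 23
  obtain ⟨t, ht⟩ := Commute.exists_add_pow_prime_eq (p := 23) (by norm_num) (Commute.one_left (-f))
  have e1 : f ^ 23 = 1 := Subtype.ext (by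
    show ρ x ^ 23 = 1
    rw [← map_pow, h.hx, map_one])
  rw [← sub_eq_add_neg, Odd.neg_pow (by decide), e1, one_pow, add_neg_cancel, zero_add, mul_one,
    mul_assoc] at ht
  have e2 : ((1 - f) ^ 23).1 w = (23 : ℚ) • (-f * t).1 w := by
    rw [ht, ← nsmul_eq_mul]; exact (Nat.cast_smul_eq_nsmul ℚ 23 ((-f * t).1 w)).symm
  obtain ⟨n, hn⟩ := h.lt.du h.rp ((-f * t).2 w hw) _ ((-f * t).2 w hw)
  rw [e2] at b
  simp only [map_smul, LinearMap.smul_apply, smul_eq_mul, hn] at b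
  have : 23 * (23 * n) = 2 := by exact_mod_cast b
  omega

theorem exists_cyc {r : V} (hr : r ∈ L) (h0 : β r u = 0) (h2 : β r r = 2) :
    ∃ r ∈ L, β r u = 0 ∧ β r r = 2 ∧ ∃ d, d ≠ 0 ∧ ∀ i, β r (XX ρ x (d * i) r) = cyc i := by
  obtain ⟨r, hr, h0, h2, h1⟩ := h.good_root hr h0 h2
  refine ⟨r, hr, h0, h2, ?_⟩
  choose c hc using fun i => h.lt.du h.rp hr _ (h.lt.XX x i hr)
  have hf : ρ x r ≠ r := fun e => by
    have := h.fix_eq e
    rw [h0, mul_zero, zero_div, zero_smul] at this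
    rw [this, map_zero] at h2; norm_num at h2
  have c0 : c 0 = 2 := Int.cast_injective (α := ℚ) (by rw [← hc, XX_zero, h2]; rfl)
  have cs : ∀ i, c (-i) = c i := fun i => Int.cast_injective (α := ℚ) (by rw [← hc, ← hc, h.rp.XX_neg h.hx])
  have cn : ∀ i, i ≠ 0 → c i ≤ 0 := fun i hi => by
    have p := h.rp.pos (r - XX ρ x i r) fun e => hf (fix_of_XX h.hx hi (sub_eq_zero.1 e).symm)
    rw [h.norm_sub, h2, hc] at p
    have p1 : 0 < 2 * (2 - c i) := by exact_mod_cast p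
    have p2 : c i ≠ 1 := fun e => h1 i (by rw [hc, e]; rfl)
    omega
  have s : ∑ i, c i = 0 := Int.cast_injective (α := ℚ) (by
    have := h.sum_b r r
    simp only [hc, h0] at this
    push_cast; rw [this]; ring)
  obtain ⟨d, hd⟩ : ∃ d, c d < 0 := by
    by_contra hn
    push Not at hn
    have := (Finset.sum_eq_zero_iff_of_nonneg fun i _ => hn i).1 s 0 (Finset.mem_univ _)
    omega
  have d0 : d ≠ 0 := by rintro rfl; omega
  have dn : ∀ i : ZMod 23, i ≠ 0 → -i ≠ i := by decide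
  have m1 : d ∈ Finset.univ.erase (0 : ZMod 23) := by simpa using d0
  have m2 : -d ∈ (Finset.univ.erase (0 : ZMod 23)).erase d := by simpa using ⟨dn d d0, d0⟩
  rw [← Finset.add_sum_erase _ _ (Finset.mem_univ 0), ← Finset.add_sum_erase _ _ m1,
    ← Finset.add_sum_erase _ _ m2, cs, c0] at s
  have np : ∀ i ∈ ((Finset.univ.erase (0 : ZMod 23)).erase d).erase (-d), c i ≤ 0 := fun i hi =>
    cn i (by simp only [Finset.mem_erase] at hi; exact hi.2.2.1)
  have s1 := Finset.sum_nonpos np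
  have z := (Finset.sum_eq_zero_iff_of_nonpos np).1 (by omega)
  refine ⟨d, d0, fun i => ?_⟩
  rw [hc, Int.cast_inj, cyc]
  split_ifs with k1 k2
  · rw [k1, mul_zero, c0]
  · rcases k2 with rfl | rfl
    · rw [mul_one]; omega
    · rw [mul_neg, mul_one, cs]; omega
  · push Not at k2
    refine z _ (by
      simp only [Finset.mem_erase, Finset.mem_univ, and_true]
      exact ⟨fun e => k2.2 (mul_left_cancel₀ d0 (by rw [e]; ring)),
        fun e => k2.1 (mul_left_cancel₀ d0 (by rw [e]; ring)), mul_ne_zero d0 k1⟩)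

theorem exists_wt {r : V} (hr : r ∈ L) (h0 : β r u = 0) (h2 : β r r = 2) :
    ∃ d ε, Wt ρ β x L u d ε := by
  obtain ⟨r, hr, h0, h2, d, d0, hc⟩ := h.exists_cyc hr h0 h2
  let R : ZMod 23 → V := fun i => XX ρ x (d * i) r
  have hR : ∀ i k, β (R i) (R k) = cyc (k - i) := fun i k => by
    rw [h.rp.XX_sub h.hx, ← mul_sub, hc]
  have perp : ∀ z, β z u = 0 → (∀ i, β z (R i) = 0) → z = 0 := fun z a b =>
    h.rp.perp h.hx h.u0 h.fix (w := r) (by rintro rfl; simp at h2) (by rw [h.TT_eq, h0]; simp) a fun i => by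
      have := b (d⁻¹ * i)
      simpa only [R, mul_inv_cancel_left₀ d0] using this
  let ε : ZMod 23 → V := fun i => (1 / 23 : ℚ) • ∑ j : ZMod 23, ((22 - j.val : ℤ) : ℚ) • R (i + j)
  have e1 : ∀ i k, β (ε i) (R k) = (dl k i - dl (k + 1) i : ℤ) := fun i k => by
    have := congrArg (Int.cast (R := ℚ)) (cyc1 i k)
    simp only [ε, map_smul, map_sum, LinearMap.smul_apply, LinearMap.sum_apply, smul_eq_mul, hR]
    rw [Int.cast_sum, Int.cast_mul] at this
    simp only [Int.cast_mul] at this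
    rw [this]; push_cast; ring
  have e2 : ∀ i, β (ε i) u = 0 := fun i => by
    simp only [ε, R, map_smul, map_sum, LinearMap.smul_apply, LinearMap.sum_apply, smul_eq_mul, h.XX_u, h0,
      mul_zero, Finset.sum_const_zero]
  have e3 : ∀ i, ε i - ε (i + 1) = R i := fun i => sub_eq_zero.1 (perp _ (by
    simp only [R, map_sub, LinearMap.sub_apply, e2, h.XX_u, h0, sub_self]) fun k => by
      simp only [map_sub, LinearMap.sub_apply, e1, hR, ← cyc3]; push_cast; ring)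
  refine ⟨d, ε, fun i k => ?_, fun i k => ?_, e2, fun i => e3 i ▸ h.lt.XX x _ hr,
    fun z a b => perp z a fun i => e3 i ▸ b i⟩
  · simp only [ε, R, map_smul, map_sum, ← XX_add h.hx]
    congr 1
    exact Finset.sum_congr rfl fun j _ => by congr 3; ring
  · have := congrArg (Int.cast (R := ℚ)) (cyc2 i k)
    conv_lhs => rw [show ε k = (1 / 23 : ℚ) • ∑ j : ZMod 23, ((22 - j.val : ℤ) : ℚ) • R (k + j) from rfl]
    simp only [map_smul, map_sum, smul_eq_mul, e1]
    rw [Int.cast_sum] at this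
    simp only [Int.cast_mul] at this
    rw [this]; push_cast; ring

variable {d : ZMod 23} {ε : ZMod 23 → V} (w : Wt ρ β x L u d ε)
include w

theorem sum_wt : ∑ i, ε i = 0 := by
  refine h.rp.eq_zero ?_
  simp [map_sum, LinearMap.sum_apply, w.gr, dl, Finset.sum_sub_distrib]

theorem struct {z : V} (hz : ∀ i, IZ (β z (ε i - ε (i + 1)))) : ∃ m : ZMod 23 → ℤ, |∑ i, m i| ≤ 11 ∧
    (∀ i, β z (ε i) = m i - (∑ i, m i : ℤ) / 23) ∧ z = (D * β z u / 23) • u + ∑ i, (m i : ℚ) • ε i ∧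
    23 * β z z = D * β z u ^ 2 + (23 * ∑ i, m i ^ 2 - (∑ i, m i) ^ 2 : ℤ) := by
  have k1 : ∀ n : ℕ, IZ (β z (ε n) - β z (ε 0)) := fun n => by
    induction n with
    | zero => exact ⟨0, by simp⟩
    | succ n ih => exact (ih.sub (hz n)).congr (by rw [map_sub]; push_cast; ring)
  choose a ha using fun i : ZMod 23 => k1 i.val
  simp only [ZMod.natCast_zmod_val] at ha
  have s0 : ∑ i, β z (ε i) = 0 := by rw [← map_sum, h.sum_wt w, map_zero]
  have s1 : 23 * β z (ε 0) = -(∑ i, a i : ℤ) := by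
    have := Finset.sum_congr (s₁ := Finset.univ) rfl fun i _ => ha i
    rw [Finset.sum_sub_distrib, s0] at this
    simp only [Finset.sum_const, Finset.card_univ, ZMod.card, nsmul_eq_mul] at this
    push_cast at this ⊢; linarith
  let t := (∑ i, a i + 11) / 23
  have e0 : ∑ i, (a i - t) = ∑ i, a i - 23 * t := by
    simp only [Finset.sum_sub_distrib, Finset.sum_const, Finset.card_univ, ZMod.card, nsmul_eq_mul]; rfl
  have e1 : ∀ i, β z (ε i) = (a i - t : ℤ) - (∑ i, (a i - t) : ℤ) / 23 := fun i => by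
    rw [e0, Int.cast_sub, Int.cast_sub, ← ha, Int.cast_mul]
    push_cast at s1 ⊢; linarith
  have hb : |∑ i, (a i - t)| ≤ 11 := by rw [e0, abs_le]; omega
  obtain ⟨m, hm⟩ : ∃ m : ZMod 23 → ℤ, m = fun i => a i - t := ⟨_, rfl⟩
  have e1' : ∀ i, β z (ε i) = m i - (∑ i, m i : ℤ) / 23 := by rw [hm]; exact e1
  have hD := h.Dq
  have e2 : z = (D * β z u / 23) • u + ∑ i, (m i : ℚ) • ε i := by
    refine sub_eq_zero.1 (w.perp _ ?_ fun k => ?_)
    · simp only [map_sub, map_add, map_smul, map_sum, LinearMap.sub_apply, LinearMap.add_apply,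
        LinearMap.smul_apply, LinearMap.sum_apply, smul_eq_mul, w.pu, h.nu, mul_zero, Finset.sum_const_zero]
      field_simp; ring
    · simp only [map_sub, map_add, map_smul, map_sum, LinearMap.sub_apply, LinearMap.add_apply,
        LinearMap.smul_apply, LinearMap.sum_apply, smul_eq_mul, h.rp.symm u, w.pu, w.gr, e1', mul_sub, dl,
        Finset.sum_sub_distrib, Int.cast_ite, mul_ite, Int.cast_one, Int.cast_zero, mul_one, mul_zero,
        Finset.sum_ite_eq', Finset.mem_univ, if_true]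
      ring
  refine ⟨m, hm ▸ hb, e1', e2, ?_⟩
  have e3 := congrArg (β z) e2
  simp only [map_add, map_smul, map_sum, smul_eq_mul, e1', mul_sub, Finset.sum_sub_distrib,
    ← Finset.sum_mul] at e3
  rw [e3]; push_cast
  simp only [sq]; ring

theorem struct1 {z : V} (hz : ∀ i, IZ (β z (ε i - ε (i + 1)))) {F : ℤ} (hF : 23 * β z z = D * β z u ^ 2 + F)
    (hl : F < 46) : (F = 0 ∧ ρ x z = z) ∨
      (F = 22 ∧ ∃ (i : ZMod 23) (s : ℚ), s ^ 2 = 1 ∧ z = (D * β z u / 23) • u + s • ε i) ∨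
      (F = 42 ∧ ∃ (i : ZMod 23) (s : ℚ), s ^ 2 = 1 ∧ β z (ε i) = s * (21 / 23)) := by
  obtain ⟨m, h1, h2, h3, h4⟩ := h.struct w hz
  have e : F = 23 * ∑ i, m i ^ 2 - (∑ i, m i) ^ 2 := Int.cast_injective (α := ℚ) (by linarith)
  rcases small_F m h1 (e ▸ hl) with k | ⟨i, s, k1, k2⟩ | ⟨k, i, k1, k2⟩
  · refine Or.inl ⟨by simp [e, k], ?_⟩
    rw [h3]; simp [k, h.fix]
  · refine Or.inr (Or.inl ⟨?_, i, s, by exact_mod_cast k1, ?_⟩)
    · simp [e, k2, dl, k1]
    · conv_lhs => rw [h3]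
      simp [k2, dl]
  · refine Or.inr (Or.inr ⟨by rw [e, k, k2, mul_pow, k1]; rfl, i, m i, by exact_mod_cast k1, ?_⟩)
    rw [h2, k2]; push_cast; ring

theorem wt_du {y : V} (hy : Du β L y) (i : ZMod 23) : IZ (β y (ε i - ε (i + 1))) := hy _ (w.mem i)

theorem wt_root (i : ZMod 23) : β (ε i - ε (i + 1)) (ε i - ε (i + 1)) = 2 := by
  have : i + 1 ≠ i := fun e => absurd (add_eq_left.1 e) (by decide)
  simp [w.gr, dl, this, this.symm]; norm_num

theorem cmp {y y0 : V} (hy : Du β L y) (hy0 : Du β L y0) {a a0 t t0 : ℚ} {i i0 : ZMod 23}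
    (e : y = a • u + t • ε i) (e0 : y0 = a0 • u + t0 • ε i0) (ha : a ^ 2 = a0 ^ 2) (ht : t ^ 2 = t0 ^ 2)
    (hn : ¬ IZ (2 * a)) : ∃ k, y = XX ρ x k y0 ∨ y = -XX ρ x k y0 := by
  have e1 : XX ρ x (d * (i - i0)) y0 = a0 • u + t0 • ε i := by
    rw [e0, map_add, map_smul, map_smul, XX_fix h.fix, w.sh, add_sub_cancel]
  have d1 : Du β L (XX ρ x (d * (i - i0)) y0) := hy0.map h.rp h.lt _
  refine ⟨d * (i - i0), ?_⟩
  rw [e1] at d1 ⊢
  rcases sq_eq_sq_iff_eq_or_eq_neg.1 ha with rfl | rfl <;> rcases sq_eq_sq_iff_eq_or_eq_neg.1 ht with rfl | rfl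
  · exact Or.inl e
  · exact absurd (h.line (by convert hy.add d1 using 1; rw [e]; module)) hn
  · exact absurd (h.line (by convert hy.sub d1 using 1; rw [e]; module)) hn
  · exact Or.inr (by rw [e]; module)

theorem rootA {z : V} (hz : z ∈ L) (h2 : β z z = 2) (h0 : β z u ≠ 0) : (D = 6 ∧ β z u ^ 2 = 4) ∨
    (D = 4 ∧ β z u ^ 2 = 1 ∧ ∃ (i : ZMod 23) (s : ℚ), s ^ 2 = 1 ∧ β z (ε i) = s * (21 / 23)) := by
  obtain ⟨b, hb⟩ := h.bZ hz
  have b0 : b ≠ 0 := fun e => h0 (by simp [hb, e])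
  have b1 : 0 < b ^ 2 := by positivity
  have D0 := h.D0
  have D2 := h.ev
  have D8 := h.n8
  have D23 := h.n23
  have hb2 : ∀ n : ℤ, b ^ 2 = n → β z u ^ 2 = n := fun n e => by rw [hb, ← e]; push_cast; rfl
  have hle : ∀ N : ℤ, D * b ^ 2 = N → N ≤ 46 → -7 < b ∧ b < 7 := fun N e l => by
    have : b ^ 2 ≤ 46 := by nlinarith
    constructor <;> nlinarith
  rcases h.struct1 w (h.wt_du w (h.lt.du h.rp hz)) (F := 46 - D * b ^ 2) (by rw [h2, hb]; push_cast; ring)
    (by nlinarith) with ⟨e, -⟩ | ⟨e, -⟩ | ⟨e, k⟩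
  · obtain ⟨l1, l2⟩ := hle 46 (by linarith) le_rfl
    interval_cases b <;> omega
  · obtain ⟨l1, l2⟩ := hle 24 (by linarith) (by norm_num)
    refine Or.inl ⟨by interval_cases b <;> omega, hb2 4 (by interval_cases b <;> omega)⟩
  · obtain ⟨l1, l2⟩ := hle 4 (by linarith) (by norm_num)
    refine Or.inr ⟨by interval_cases b <;> omega, hb2 1 (by interval_cases b <;> omega), k⟩

theorem caseA6 (hD : D = 6) : ∃ H : Subgroup G, H.index = 24 := by
  have k : ∀ g, ρ x (ρ g u) ≠ ρ g u → ∃ (a t : ℚ) (i : ZMod 23), a ^ 2 = (1 / 23) ^ 2 ∧ t ^ 2 = 4 ∧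
      ρ g u = a • u + t • ε i := fun g hg => by
    obtain ⟨j, hj⟩ := h.jZ (h.du.map h.rp h.lt g)
    have hz : ∀ i, IZ (β ((1 / 2 : ℚ) • ρ g u) (ε i - ε (i + 1))) := fun i => by
      rw [map_smul, LinearMap.smul_apply, h.rp.inv', h.rp.symm, smul_eq_mul]
      by_cases e : β (ρ g⁻¹ (ε i - ε (i + 1))) u = 0
      · exact ⟨0, by simp only [e]; simp⟩
      rcases h.rootA w (h.lt.inv _ _ (w.mem i)) (by rw [h.rp.inv, h.wt_root w]) e with ⟨-, e1⟩ | ⟨e1, -⟩
      · rcases sq_eq_sq_iff_eq_or_eq_neg.1 (e1.trans (show (4 : ℚ) = 2 ^ 2 by norm_num)) with e2 | e2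
        · exact ⟨1, by rw [e2]; norm_num⟩
        · exact ⟨-1, by rw [e2]; norm_num⟩
      · omega
    obtain ⟨m, -, -, -, h4⟩ := h.struct w hz
    generalize 23 * ∑ i, m i ^ 2 - (∑ i, m i) ^ 2 = F at h4
    have e1 : 529 = j ^ 2 + 24 * F := Int.cast_injective (α := ℚ) (by
      simp only [map_smul, LinearMap.smul_apply, smul_eq_mul, h.rp.inv, h.nu] at h4
      subst hD
      push_cast at hj h4 ⊢
      rw [← hj]; linarith)
    rcases h.struct1 w hz h4 (by nlinarith [sq_nonneg j]) with ⟨-, e⟩ | ⟨e, i, s, e2, e3⟩ | ⟨e, -⟩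
    · rw [map_smul] at e
      exact absurd (smul_right_injective V (by norm_num) e) hg
    · have e4 : (j : ℚ) ^ 2 = 1 := by exact_mod_cast (show j ^ 2 = 1 by omega)
      refine ⟨j / 23, 2 * s, i, by rw [div_pow, e4]; norm_num, by rw [mul_pow, e2]; norm_num, ?_⟩
      rw [map_smul, LinearMap.smul_apply, smul_eq_mul, mul_left_comm, hj] at e3
      linear_combination (norm := module) (2 : ℚ) • e3
    · nlinarith [sq_nonneg j]
  obtain ⟨g0, h0⟩ := h.nonfix
  refine h.idx24 h0 fun g hg => ?_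
  obtain ⟨a, t, i, a1, t1, e⟩ := k g hg
  obtain ⟨a0, t0, i0, a2, t2, e0⟩ := k g0 h0
  refine h.cmp w (h.du.map h.rp h.lt g) (h.du.map h.rp h.lt g0) e e0 (a1.trans a2.symm) (t1.trans t2.symm) ?_
  rintro ⟨n, hn⟩
  have : (23 * n) ^ 2 = 4 := Int.cast_injective (α := ℚ) (by
    push_cast; rw [← hn]; linear_combination (46 ^ 2) * a1)
  have : 23 * (23 * (n * n)) = 4 := by linarith
  omega

theorem caseA4 (hD : D = 4) {z : V} (hz : z ∈ L) (hb : β z u ^ 2 = 1) {i : ZMod 23} {s : ℚ} (hs : s ^ 2 = 1)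
    (e : β z (ε i) = s * (21 / 23)) : ∃ H : Subgroup G, H.index = 23 := by
  subst hD
  obtain ⟨y, hy⟩ : ∃ y, y = (2 * β z u / 23) • u + s • ε i := ⟨_, rfl⟩
  have y1 : β y y = 1 := by
    simp only [hy, map_add, map_smul, LinearMap.add_apply, LinearMap.smul_apply, smul_eq_mul, h.nu,
      h.rp.symm u, w.pu, w.gr, dl]
    push_cast
    linear_combination (1 / 23) * hb + (22 / 23) * hs
  have y2 : β y z = 1 := by
    simp only [hy, map_add, map_smul, LinearMap.add_apply, LinearMap.smul_apply, smul_eq_mul, h.rp.symm u,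
      h.rp.symm (ε i), e]
    linear_combination (2 / 23) * hb + (21 / 23) * hs
  have s1 : IZ s := by
    rcases sq_eq_sq_iff_eq_or_eq_neg.1 (hs.trans (one_pow 2).symm) with rfl | rfl
    exacts [⟨1, rfl⟩, ⟨-1, rfl⟩]
  have y3 : Du β L y := fun l hl => by
    have m0 := L.sub_mem hl (((h.bZ hl).mul (h.bZ hz)).smul hz)
    have p0 : β (l - (β l u * β z u) • z) u = 0 := by
      simp only [map_sub, map_smul, LinearMap.sub_apply, LinearMap.smul_apply, smul_eq_mul]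
      linear_combination (-β l u) * hb
    obtain ⟨m, h1, h2, -, h4⟩ := h.struct w (h.wt_du w (h.lt.du h.rp m0))
    obtain ⟨n, hn⟩ := h.lt.du h.rp m0 _ m0
    rw [hn, p0] at h4
    have e1 : 23 * n = 23 * ∑ i, m i ^ 2 - (∑ i, m i) ^ 2 := Int.cast_injective (α := ℚ) (by
      rw [Int.cast_mul, Int.cast_ofNat, h4]; ring)
    have e2 : ∑ i, m i = 0 := by
      generalize ∑ i, m i = σ at h1 e1
      obtain ⟨b1, b2⟩ := abs_le.1 h1
      interval_cases σ <;> omega
    refine ((s1.mul (IZ.int (m i))).add ((h.bZ hl).mul (h.bZ hz))).congr ?_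
    have e3 : β y (l - (β l u * β z u) • z) = s * m i := by
      rw [h.rp.symm, hy, map_add, map_smul, map_smul, p0, h2, e2]; simp
    rw [map_sub, map_smul, y2, smul_eq_mul] at e3
    linarith
  have y4 : ρ x y ≠ y := fun e => by
    have e1 := XX_fix e (d * 1)
    rw [hy, map_add, map_smul, map_smul, XX_fix h.fix, w.sh, add_right_inj] at e1
    have e2 := smul_right_injective V (show s ≠ 0 by rintro rfl; norm_num at hs) e1
    have := h.wt_root w i
    simp only [e2, sub_self, map_zero] at this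
    norm_num at this
  refine h.idx23 y4 fun g => ?_
  have d1 := y3.map h.rp h.lt g
  have n1 : β (ρ g y) (ρ g y) = 1 := by rw [h.rp.inv, y1]
  generalize ρ g y = y' at d1 n1
  obtain ⟨j, hj⟩ := h.jZ d1
  obtain ⟨m, -, -, -, h4⟩ := h.struct w (h.wt_du w d1)
  generalize 23 * ∑ i, m i ^ 2 - (∑ i, m i) ^ 2 = F at h4
  have e1 : 92 = j ^ 2 + 4 * F := Int.cast_injective (α := ℚ) (by
    push_cast at hj h4 ⊢
    rw [← hj]; linarith)
  rcases h.struct1 w (h.wt_du w d1) h4 (by nlinarith [sq_nonneg j]) with ⟨e, -⟩ | ⟨e, i', s', e2, e3⟩ | ⟨e, -⟩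
  · have b1 : j ≤ 9 := by nlinarith
    have b2 : -9 ≤ j := by nlinarith
    interval_cases j <;> omega
  · have e4 : (j : ℚ) ^ 2 = 4 := by exact_mod_cast (show j ^ 2 = 4 by omega)
    rw [hj] at e3
    refine h.cmp w d1 y3 e3 hy (by linear_combination (1 / 529) * e4 - (4 / 529) * hb) (e2.trans hs.symm) ?_
    rintro ⟨n, hn⟩
    have : (23 * n) ^ 2 = 16 := Int.cast_injective (α := ℚ) (by
      push_cast; rw [← hn]; linear_combination 4 * e4)
    have : 23 * (23 * (n * n)) = 16 := by linarith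
    omega
  · nlinarith [sq_nonneg j]

omit w in
theorem caseA {r : V} (hr : r ∈ L) (h0 : β r u = 0) (h2 : β r r = 2) :
    ∃ H : Subgroup G, H.index = 23 ∨ H.index = 24 := by
  obtain ⟨d, ε, w⟩ := h.exists_wt hr h0 h2
  obtain ⟨g, hg⟩ : ∃ g, β (ρ g r) u ≠ 0 := by
    by_contra hc
    push Not at hc
    rcases h.rp.irr (Submodule.span ℚ (Set.range fun g => ρ g r)) (fun g y hy =>
      (Submodule.span_le (p := (Submodule.span ℚ (Set.range fun g => ρ g r)).comap (ρ g))).2 (by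
        rintro _ ⟨k, rfl⟩
        exact Submodule.subset_span ⟨g * k, by simp⟩) hy) with e | e
    · have : r ∈ Submodule.span ℚ (Set.range fun g => ρ g r) := Submodule.subset_span ⟨1, by simp⟩
      rw [e, Submodule.mem_bot] at this
      simp [this] at h2
    · have : Submodule.span ℚ (Set.range fun g => ρ g r) ≤ LinearMap.ker (β u) := Submodule.span_le.2 (by
        rintro _ ⟨k, rfl⟩
        exact (h.rp.symm _ _).trans (hc k))
      exact h.u0 (h.rp.eq_zero (this (e ▸ Submodule.mem_top)))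
  rcases h.rootA w (h.lt.inv g r hr) (by rw [h.rp.inv, h2]) hg with ⟨e, -⟩ | ⟨e, e1, i, s, e2, e3⟩
  · exact (h.caseA6 w e).imp fun _ => Or.inr
  · exact (h.caseA4 w e (h.lt.inv g r hr) e1 e2 e3).imp fun _ => Or.inl

end Ctx

end CF.Feit
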