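import Cfsg.Agent.Leech.Theta

/-! Venkov's identity for the roots of an even unimodular lattice of rank `24`. -/

set_option autoImplicit false
set_option linter.style.haveILetI false

namespace CF.Feit

open UpperHalfPlane hiding I
open Complex ModularForm SlashInvariantForm Matrix CF.Leech.Pois
open scoped Real MatrixGroups ModularForm Manifold

variable {B : Matrix (Fin 24) (Fin 24) ℤ}

theorem bsymm (h : EU B) (x y : Fin 24 → ℤ) : x ⬝ᵥ (B *ᵥ y) = y ⬝ᵥ (B *ᵥ x) := by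
  rw [dotProduct_mulVec, ← mulVec_transpose, h.symm.eq, dotProduct_comm]

theorem bcs (h : EU B) (x y : Fin 24 → ℤ) :
    (x ⬝ᵥ (B *ᵥ y)) ^ 2 ≤ x ⬝ᵥ (B *ᵥ x) * y ⬝ᵥ (B *ᵥ y) := by
  rcases eq_or_ne y 0 with rfl | hy
  · simp
  have h1 := h.pos y hy
  have h2 := h.nonneg ((y ⬝ᵥ (B *ᵥ y)) • x - (x ⬝ᵥ (B *ᵥ y)) • y)
  simp only [mulVec_sub, mulVec_smul, dotProduct_sub, sub_dotProduct, smul_dotProduct, dotProduct_smul,
    smul_eq_mul, bsymm h y x] at h2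
  nlinarith

theorem sm2 (h : EU B) (y : Fin 24 → ℤ) {r : ℝ} (hr : 0 < r) (K : ℝ) :
    Summable fun x : Fin 24 → ℤ => Real.exp (-r * (x ⬝ᵥ (B *ᵥ x) : ℤ) + K * |((x ⬝ᵥ (B *ᵥ y) : ℤ) : ℝ)|) := by
  refine Summable.of_nonneg_of_le (fun _ => (Real.exp_pos _).le) (fun x => ?_)
    ((h.sm (half_pos hr)).mul_left (Real.exp (K ^ 2 * (y ⬝ᵥ (B *ᵥ y) : ℤ) / (2 * r))))
  rw [← Real.exp_add, Real.exp_le_exp]
  have h1 : (((x ⬝ᵥ (B *ᵥ y) : ℤ) : ℝ)) ^ 2 ≤ (x ⬝ᵥ (B *ᵥ x) : ℤ) * (y ⬝ᵥ (B *ᵥ y) : ℤ) := by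
    exact_mod_cast bcs h x y
  have h2 : (0 : ℝ) ≤ (x ⬝ᵥ (B *ᵥ x) : ℤ) := by exact_mod_cast h.nonneg x
  have h3 : (0 : ℝ) ≤ (y ⬝ᵥ (B *ᵥ y) : ℤ) := by exact_mod_cast h.nonneg y
  generalize ((x ⬝ᵥ (B *ᵥ y) : ℤ) : ℝ) = b at *
  generalize ((x ⬝ᵥ (B *ᵥ x) : ℤ) : ℝ) = n at *
  generalize ((y ⬝ᵥ (B *ᵥ y) : ℤ) : ℝ) = m at *
  have h4 : K * |b| ≤ r / 2 * n + K ^ 2 * m / (2 * r) := by
    refine le_trans (le_abs_self _) (abs_le_of_sq_le_sq' ?_ (by positivity)).2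
    have e : (r / 2 * n + K ^ 2 * m / (2 * r)) ^ 2 = (r / 2 * n - K ^ 2 * m / (2 * r)) ^ 2 + K ^ 2 * (n * m) := by
      field_simp; ring
    rw [sq_abs, mul_pow, sq_abs, e]
    nlinarith [sq_nonneg (r / 2 * n - K ^ 2 * m / (2 * r)), mul_le_mul_of_nonneg_left h1 (sq_nonneg K)]
  linarith

/-- Terms of the auxiliary series. -/
noncomputable def tm (B : Matrix (Fin 24) (Fin 24) ℤ) (y : Fin 24 → ℤ) (A κ : ℂ) (n : ℕ) (x : Fin 24 → ℤ)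
    (s : ℝ) : ℂ :=
  (κ * (x ⬝ᵥ (B *ᵥ y) : ℤ)) ^ n * cexp (-π * A * (x ⬝ᵥ (B *ᵥ x) : ℤ) + κ * (x ⬝ᵥ (B *ᵥ y) : ℤ) * s)

theorem tm_le (y : Fin 24 → ℤ) (A κ : ℂ) (n : ℕ) (x : Fin 24 → ℤ) {s : ℝ} (hs : s ∈ Set.Ioo (-1 : ℝ) 1) :
    ‖tm B y A κ n x s‖ ≤ n.factorial *
      Real.exp (-(π * A.re) * (x ⬝ᵥ (B *ᵥ x) : ℤ) + 2 * ‖κ‖ * |((x ⬝ᵥ (B *ᵥ y) : ℤ) : ℝ)|) := by
  have e : ‖κ * (x ⬝ᵥ (B *ᵥ y) : ℤ)‖ = ‖κ‖ * |((x ⬝ᵥ (B *ᵥ y) : ℤ) : ℝ)| := by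
    rw [norm_mul, Complex.norm_intCast]
  have h1 := Real.pow_div_factorial_le_exp _ (norm_nonneg (κ * (x ⬝ᵥ (B *ᵥ y) : ℤ))) n
  rw [div_le_iff₀ (by positivity)] at h1
  have h2 : (κ * (x ⬝ᵥ (B *ᵥ y) : ℤ) * s).re ≤ ‖κ * (x ⬝ᵥ (B *ᵥ y) : ℤ)‖ := by
    refine (Complex.re_le_norm _).trans ?_
    rw [norm_mul, Complex.norm_real, Real.norm_eq_abs]
    exact mul_le_of_le_one_right (norm_nonneg _) (abs_le.2 ⟨hs.1.le, hs.2.le⟩)
  have h3 : (-π * A * (x ⬝ᵥ (B *ᵥ x) : ℤ)).re = -(π * A.re) * (x ⬝ᵥ (B *ᵥ x) : ℤ) := by simp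
  rw [tm, norm_mul, norm_pow, Complex.norm_exp, Complex.add_re, h3]
  calc _ ≤ (Real.exp ‖κ * (x ⬝ᵥ (B *ᵥ y) : ℤ)‖ * n.factorial) *
        Real.exp (-(π * A.re) * (x ⬝ᵥ (B *ᵥ x) : ℤ) + ‖κ * (x ⬝ᵥ (B *ᵥ y) : ℤ)‖) := by gcongr
    _ = _ := by rw [mul_comm (Real.exp _), mul_assoc, ← Real.exp_add, e]; congr 2; ring

theorem tm_sm (h : EU B) (y : Fin 24 → ℤ) {A : ℂ} (hA : 0 < A.re) (κ : ℂ) (n : ℕ) {s : ℝ}
    (hs : s ∈ Set.Ioo (-1 : ℝ) 1) : Summable fun x => tm B y A κ n x s :=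
  Summable.of_norm_bounded ((sm2 h y (mul_pos Real.pi_pos hA) _).mul_left _) fun x => tm_le y A κ n x hs

theorem tm_deriv (h : EU B) (y : Fin 24 → ℤ) {A : ℂ} (hA : 0 < A.re) (κ : ℂ) (n : ℕ) {s : ℝ}
    (hs : s ∈ Set.Ioo (-1 : ℝ) 1) :
    HasDerivAt (fun s => ∑' x, tm B y A κ n x s) (∑' x, tm B y A κ (n + 1) x s) s := by
  refine hasDerivAt_tsum_of_isPreconnected ((sm2 h y (mul_pos Real.pi_pos hA) _).mul_left _) isOpen_Ioo
    isPreconnected_Ioo (fun x t _ => ?_) (fun x t ht => tm_le y A κ (n + 1) x ht) hs (tm_sm h y hA κ n hs) hs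
  have := ((((Complex.ofRealCLM.hasDerivAt (x := t)).const_mul (κ * (x ⬝ᵥ (B *ᵥ y) : ℤ))).const_add
    (-π * A * (x ⬝ᵥ (B *ᵥ x) : ℤ))).cexp).const_mul ((κ * (x ⬝ᵥ (B *ᵥ y) : ℤ)) ^ n)
  refine this.congr_deriv ?_
  simp only [tm, ofRealCLM_apply, ofReal_one]; ring

theorem fe_shift (h : EU B) (y : Fin 24 → ℤ) {a : ℂ} (ha : 0 < a.re) (s : ℝ) :
    ∑' x, tm B y a (2 * π * I) 0 x s = (1 / a ^ 12) * (cexp (-π / a * (y ⬝ᵥ (B *ᵥ y) : ℤ) * s ^ 2) *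
      ∑' x, tm B y a⁻¹ (2 * π / a) 0 x s) := by
  obtain ⟨κ, hκ⟩ := poi_qf 24 _ _ h.symmR h.mul_adj h.posR
  have hinv : re24 B.adjugate * re24 B = 1 := mul_eq_one_comm.1 h.mul_adj
  have key : ∀ a : ℂ, 0 < a.re → ∀ s : ℝ, ∑' x, tm B y a (2 * π * I) 0 x s =
      κ * (1 / a ^ 12) * (cexp (-π / a * (y ⬝ᵥ (B *ᵥ y) : ℤ) * s ^ 2) *
        ∑' x, tm B y a⁻¹ (2 * π / a) 0 x s) := fun a ha s => by
    have := hκ a ha (fun i => s * (B *ᵥ y) i)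
    rw [← h.eqv.symm.tsum_eq (fun ξ : Fin 24 → ℤ => cexp (-π / a * qf (re24 B.adjugate)
      (fun i => ξ i - s * (B *ᵥ y) i)))] at this
    convert this using 2
    · funext x
      rw [tm, qf_int, pow_zero, one_mul, mul_assoc (2 * π * I)]
      congr 3
      simp only [dotProduct]
      push_cast
      rw [Finset.sum_mul]
      exact Finset.sum_congr rfl fun i _ => by ring
    · congr 1
      rw [_root_.one_div_pow, ← Complex.cpow_mul_nat]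
      norm_num
    · rw [← tsum_mul_left]
      congr 1
      funext x
      have e1 : (fun i => ((h.eqv.symm x i : ℤ) : ℝ) - s * (B *ᵥ y) i) =
          re24 B *ᵥ (fun i => (x i : ℝ) - s * y i) := by
        funext i
        show (((B *ᵥ x) i : ℤ) : ℝ) - _ = _
        simp only [mulVec, dotProduct, re24, map_apply, eq_intCast, mul_sub, Finset.sum_sub_distrib]
        push_cast
        rw [Finset.mul_sum]
        congr 1
        exact Finset.sum_congr rfl fun i _ => by ring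
      have e2 : qf (re24 B) (fun i => (x i : ℝ) - s * y i) = (x ⬝ᵥ (B *ᵥ x) : ℤ) -
          s * (x ⬝ᵥ (B *ᵥ y) : ℤ) - s * (y ⬝ᵥ (B *ᵥ x) : ℤ) + s ^ 2 * (y ⬝ᵥ (B *ᵥ y) : ℤ) := by
        simp only [qf, mulVec, dotProduct, re24, map_apply, eq_intCast]
        push_cast
        simp only [Finset.mul_sum, ← Finset.sum_sub_distrib, ← Finset.sum_add_distrib]
        exact Finset.sum_congr rfl fun i _ => Finset.sum_congr rfl fun j _ => by ring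
      rw [e1, qf_inv h.symmR h.mul_adj, mulVec_mulVec, hinv, one_mulVec, e2, bsymm h y x, tm, pow_zero,
        one_mul, ← Complex.exp_add]
      congr 1
      push_cast
      rw [div_eq_mul_inv, div_eq_mul_inv]; ring
  have h1 := key 1 (by simp) 0
  simp only [tm, pow_zero, one_mul, mul_one, one_pow, div_one, ofReal_zero, mul_zero, add_zero, inv_one,
    ne_eq, OfNat.ofNat_ne_zero, not_false_eq_true, zero_pow, Complex.exp_zero] at h1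
  have hne : ∑' x : Fin 24 → ℤ, cexp (-π * (x ⬝ᵥ (B *ᵥ x) : ℤ)) ≠ 0 := by
    have : ∑' x : Fin 24 → ℤ, cexp (-π * (x ⬝ᵥ (B *ᵥ x) : ℤ)) =
        (∑' x : Fin 24 → ℤ, Real.exp (-π * (x ⬝ᵥ (B *ᵥ x) : ℤ)) : ℝ) := by
      rw [Complex.ofReal_tsum]; push_cast; rfl
    rw [this]
    exact_mod_cast ((h.sm Real.pi_pos).tsum_pos (fun _ => (Real.exp_pos _).le) 0 (Real.exp_pos _)).ne'
  have hk : κ = 1 := by
    have : (κ - 1) * ∑' x : Fin 24 → ℤ, cexp (-π * (x ⬝ᵥ (B *ᵥ x) : ℤ)) = 0 := by linear_combination -h1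
    exact sub_eq_zero.1 ((mul_eq_zero.1 this).resolve_right hne)
  rw [key a ha, hk, one_mul]

theorem fe_two (h : EU B) (y : Fin 24 → ℤ) {a : ℂ} (ha : 0 < a.re) :
    ∑' x, tm B y a (2 * π * I) 2 x 0 = (1 / a ^ 12) * (2 * (-π / a * (y ⬝ᵥ (B *ᵥ y) : ℤ)) *
      ∑' x, tm B y a⁻¹ (2 * π / a) 0 x 0 + ∑' x, tm B y a⁻¹ (2 * π / a) 2 x 0) := by
  have hb := re_inv_pos ha
  generalize hμ : -π / a * (y ⬝ᵥ (B *ᵥ y) : ℤ) = μ
  have hE : ∀ s : ℝ, HasDerivAt (fun s : ℝ => cexp (μ * s ^ 2)) (cexp (μ * s ^ 2) * (μ * (2 * s))) s :=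
    fun s => by
      have := (((Complex.ofRealCLM.hasDerivAt (x := s)).pow 2).const_mul μ).cexp
      refine this.congr_deriv ?_
      simp
  have z : (0 : ℝ) ∈ Set.Ioo (-1 : ℝ) 1 := by norm_num
  have d1 : ∀ s ∈ Set.Ioo (-1 : ℝ) 1, ∑' x, tm B y a (2 * π * I) 1 x s =
      (1 / a ^ 12) * (cexp (μ * s ^ 2) * (μ * (2 * s)) * ∑' x, tm B y a⁻¹ (2 * π / a) 0 x s +
        cexp (μ * s ^ 2) * ∑' x, tm B y a⁻¹ (2 * π / a) 1 x s) := fun s hs => by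
    have k := tm_deriv h y ha (2 * π * I) 0 hs
    simp only [fe_shift h y ha, hμ] at k
    exact k.unique (((hE s).mul (tm_deriv h y hb _ 0 hs)).const_mul _)
  have k := (tm_deriv h y ha (2 * π * I) 1 z).congr_of_eventuallyEq
    (Filter.eventually_of_mem (isOpen_Ioo.mem_nhds z) fun s hs => (d1 s hs).symm)
  have k2 := (((((hE 0).mul ((((Complex.ofRealCLM.hasDerivAt (x := 0)).const_mul 2).const_mul μ))).mul
    (tm_deriv h y hb (2 * π / a) 0 z)).add ((hE 0).mul (tm_deriv h y hb (2 * π / a) 1 z))).const_mul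
    (1 / a ^ 12))
  rw [k.unique k2]
  simp [mul_comm μ 2]

/-- The harmonic polynomial. -/
def hp (B : Matrix (Fin 24) (Fin 24) ℤ) (y y' x : Fin 24 → ℤ) : ℤ :=
  y' ⬝ᵥ (B *ᵥ y') * (x ⬝ᵥ (B *ᵥ y)) ^ 2 - y ⬝ᵥ (B *ᵥ y) * (x ⬝ᵥ (B *ᵥ y')) ^ 2

theorem tm_two (y : Fin 24 → ℤ) (A κ : ℂ) (x : Fin 24 → ℤ) :
    tm B y A κ 2 x 0 = κ ^ 2 * ((x ⬝ᵥ (B *ᵥ y) : ℤ) ^ 2 * cexp (-π * A * (x ⬝ᵥ (B *ᵥ x) : ℤ))) := by
  simp only [tm, ofReal_zero, mul_zero, add_zero]; ring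

theorem sm_two (h : EU B) (y : Fin 24 → ℤ) {A : ℂ} (hA : 0 < A.re) :
    Summable fun x : Fin 24 → ℤ => ((x ⬝ᵥ (B *ᵥ y) : ℤ) : ℂ) ^ 2 * cexp (-π * A * (x ⬝ᵥ (B *ᵥ x) : ℤ)) := by
  simpa only [tm_two, one_pow, one_mul] using tm_sm h y hA 1 2 (s := 0) (by norm_num)

theorem hp_sum (h : EU B) (y y' : Fin 24 → ℤ) {A : ℂ} (hA : 0 < A.re) :
    HasSum (fun x : Fin 24 → ℤ => (hp B y y' x : ℂ) * cexp (-π * A * (x ⬝ᵥ (B *ᵥ x) : ℤ)))
      ((y' ⬝ᵥ (B *ᵥ y') : ℤ) * ∑' x : Fin 24 → ℤ, ((x ⬝ᵥ (B *ᵥ y) : ℤ) : ℂ) ^ 2 *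
          cexp (-π * A * (x ⬝ᵥ (B *ᵥ x) : ℤ)) -
        (y ⬝ᵥ (B *ᵥ y) : ℤ) * ∑' x : Fin 24 → ℤ, ((x ⬝ᵥ (B *ᵥ y') : ℤ) : ℂ) ^ 2 *
          cexp (-π * A * (x ⬝ᵥ (B *ᵥ x) : ℤ))) := by
  have := ((sm_two h y hA).hasSum.mul_left ((y' ⬝ᵥ (B *ᵥ y') : ℤ) : ℂ)).sub
    ((sm_two h y' hA).hasSum.mul_left ((y ⬝ᵥ (B *ᵥ y) : ℤ) : ℂ))
  refine cast (congrArg (HasSum · _) (funext fun x => ?_)) this
  simp only [hp]; push_cast; ring

theorem fe_hp (h : EU B) (y y' : Fin 24 → ℤ) {a : ℂ} (ha : 0 < a.re) :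
    ∑' x : Fin 24 → ℤ, (hp B y y' x : ℂ) * cexp (-π * a * (x ⬝ᵥ (B *ᵥ x) : ℤ)) =
      -(1 / a ^ 14) * ∑' x : Fin 24 → ℤ, (hp B y y' x : ℂ) * cexp (-π * a⁻¹ * (x ⬝ᵥ (B *ᵥ x) : ℤ)) := by
  have ha0 : a ≠ 0 := by rintro rfl; simp at ha
  have e1 := fe_two h y ha
  have e2 := fe_two h y' ha
  simp only [tm_two, tsum_mul_left] at e1 e2
  simp only [tm, pow_zero, one_mul, ofReal_zero, mul_zero, add_zero] at e1 e2
  rw [(hp_sum h y y' ha).tsum_eq, (hp_sum h y y' (re_inv_pos ha)).tsum_eq]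
  have hπ : (2 * π * I : ℂ) ^ 2 ≠ 0 := pow_ne_zero _ two_pi_I_ne_zero
  apply mul_left_cancel₀ hπ
  have e3 : (2 * π / a : ℂ) ^ 2 = -(2 * π * I) ^ 2 / a ^ 2 := by
    rw [mul_pow _ I, I_sq]; field_simp
  rw [e3] at e1 e2
  have e4 : (1 / a ^ 14 : ℂ) = 1 / a ^ 12 / a ^ 2 := by field_simp
  rw [e4]
  linear_combination ((y' ⬝ᵥ (B *ᵥ y') : ℤ) : ℂ) * e1 - ((y ⬝ᵥ (B *ᵥ y) : ℤ) : ℂ) * e2

/-- The harmonic theta series. -/
noncomputable def thp (B : Matrix (Fin 24) (Fin 24) ℤ) (y y' : Fin 24 → ℤ) (τ : ℍ) : ℂ :=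
  ∑' x : Fin 24 → ℤ, (hp B y y' x : ℂ) * cexp (π * I * τ * (x ⬝ᵥ (B *ᵥ x) : ℤ))

variable (y y' : Fin 24 → ℤ)

theorem thp_S (h : EU B) : thp B y y' ∣[(14 : ℤ)] ModularGroup.S = thp B y y' := by
  ext z
  have hz := z.ne_zero
  have := fe_hp h y y' (a := -I * z) (by simpa using z.im_pos)
  have e1 : ∀ m : ℤ, -π * (-I * z) * m = π * I * z * m := fun m => by ring
  have e2 : ∀ m : ℤ, -π * (-I * (z : ℂ))⁻¹ * m = π * I * (-(z : ℂ)⁻¹) * m := fun m => by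
    field_simp
    rw [I_sq]; ring
  have e3 : (-I * (z : ℂ)) ^ 14 = -z ^ 14 := by
    rw [mul_pow, show (14 : ℕ) = 2 * 7 from rfl, pow_mul, neg_sq, I_sq]; norm_num
  simp only [e1, e2, e3] at this
  rw [SL_slash_apply, UpperHalfPlane.modular_S_smul, ModularGroup.denom_S]
  simp only [thp, this]
  simp
  field_simp

theorem thp_T (h : EU B) : thp B y y' ∣[(14 : ℤ)] ModularGroup.T = thp B y y' := by
  ext z
  have hd : denom ModularGroup.T z = 1 := by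
    rw [ModularGroup.denom_apply]; simp [ModularGroup.T]
  rw [SL_slash_apply, hd, modular_T_smul]
  simp only [thp]
  have : ∀ x : Fin 24 → ℤ, cexp (π * I * ((1 : ℝ) +ᵥ z : ℍ) * (x ⬝ᵥ (B *ᵥ x) : ℤ)) =
      cexp (π * I * z * (x ⬝ᵥ (B *ᵥ x) : ℤ)) := fun x => by
    obtain ⟨m, hm⟩ := h.even x
    rw [hm, coe_vadd, ← mul_one (cexp (π * I * z * _)), ← Complex.exp_int_mul_two_pi_mul_I m, ← Complex.exp_add]
    congr 1; push_cast; ring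
  simp only [this, _root_.one_zpow, mul_one]

/-- The coefficients. -/
noncomputable def cfp (B : Matrix (Fin 24) (Fin 24) ℤ) (y y' : Fin 24 → ℤ) (m : ℕ) : ℂ :=
  ∑' x : {x : Fin 24 → ℤ // (x ⬝ᵥ (B *ᵥ x) / 2).toNat = m}, (hp B y y' x : ℂ)

theorem thp_sm (h : EU B) {w : ℂ} (hw : 0 < w.im) :
    Summable fun x : Fin 24 → ℤ => (hp B y y' x : ℂ) * cexp (π * I * w * (x ⬝ᵥ (B *ᵥ x) : ℤ)) := by
  refine (hp_sum h y y' (A := -I * w) (by simpa using hw)).summable.congr fun x => ?_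
  congr 2; ring

theorem half_eq (h : EU B) (x : Fin 24 → ℤ) (m : ℕ) :
    (x ⬝ᵥ (B *ᵥ x) / 2).toNat = m ↔ x ⬝ᵥ (B *ᵥ x) = 2 * m := by
  obtain ⟨k, hk⟩ := h.even x
  have := h.nonneg x
  omega

theorem thp_hasSum (h : EU B) (τ : ℍ) :
    HasSum (fun m => cfp B y y' m • Function.Periodic.qParam 1 τ ^ m) (thp B y y' τ) := by
  let N : (Fin 24 → ℤ) → ℕ := fun x => (x ⬝ᵥ (B *ᵥ x) / 2).toNat
  have h1 := (thp_sm y y' h τ.im_pos).hasSum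
  rw [← (Equiv.sigmaFiberEquiv N).hasSum_iff] at h1
  refine h1.sigma fun m => ?_
  have h2 := h1.summable.sigma_factor m
  have e : ∀ x : {x // N x = m}, ((fun x : Fin 24 → ℤ => (hp B y y' x : ℂ) *
      cexp (π * I * τ * (x ⬝ᵥ (B *ᵥ x) : ℤ))) ∘ (Equiv.sigmaFiberEquiv N)) ⟨m, x⟩ =
      (hp B y y' x : ℂ) * Function.Periodic.qParam 1 τ ^ m := fun x => by
    show (hp B y y' x : ℂ) * cexp (π * I * τ * (x.1 ⬝ᵥ (B *ᵥ x.1) : ℤ)) = _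
    rw [(half_eq h _ _).1 x.2, Function.Periodic.qParam, ← Complex.exp_nat_mul]
    congr 2; push_cast; ring
  simp only [e] at h2 ⊢
  have h3 := h2.hasSum
  rwa [tsum_mul_right] at h3

theorem thp_holo (h : EU B) : MDiff (thp B y y') := by
  rw [UpperHalfPlane.mdifferentiable_iff]
  intro z hz
  have hz' : 0 < z.im := hz
  have hU : IsOpen {w : ℂ | z.im / 2 < w.im} := isOpen_lt continuous_const Complex.continuous_im
  have hd : DifferentiableOn ℂ (fun w : ℂ => ∑' x : Fin 24 → ℤ, (hp B y y' x : ℂ) *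
      cexp (π * I * w * (x ⬝ᵥ (B *ᵥ x) : ℤ))) {w : ℂ | z.im / 2 < w.im} := by
    refine differentiableOn_tsum_of_summable_norm (thp_sm y y' h (w := z / 2) (by simpa using hz')).norm
      (fun x => by fun_prop) hU fun x w hw => ?_
    rw [norm_mul, norm_mul]
    refine mul_le_mul_of_nonneg_left ?_ (norm_nonneg _)
    rw [Complex.norm_exp, Complex.norm_exp, Real.exp_le_exp]
    simp only [mul_re, ofReal_re, Complex.I_re, ofReal_im, Complex.I_im, mul_im, intCast_re, intCast_im,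
      div_ofNat_re, div_ofNat_im]
    have h1 : (0 : ℝ) ≤ (x ⬝ᵥ (B *ᵥ x) : ℤ) := by exact_mod_cast h.nonneg x
    have h2 : z.im / 2 < w.im := hw
    have := mul_nonneg (mul_nonneg Real.pi_pos.le h1) (sub_nonneg.2 h2.le)
    nlinarith
  have hz2 : z ∈ {w : ℂ | z.im / 2 < w.im} := by show z.im / 2 < z.im; linarith
  refine ((hd.differentiableAt (hU.mem_nhds hz2)).differentiableWithinAt).congr (fun w hw => ?_) ?_
  · simp [thp, ofComplex_apply_of_im_pos hw]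
  · simp [thp, ofComplex_apply_of_im_pos hz']

/-- The harmonic theta series as a modular form. -/
noncomputable def mfp (h : EU B) : ModularForm 𝒮ℒ 14 where
  toFun := thp B y y'
  slash_action_eq' A hA := by
    obtain ⟨A, rfl⟩ := hA
    exact slash_action_generators_SL2Z (thp_S y y' h) (thp_T y y' h) A
  holo' := thp_holo y y' h
  bdd_at_cusps' hc := by
    rw [Subgroup.IsArithmetic.isCusp_iff_isCusp_SL2Z] at hc
    rw [OnePoint.isBoundedAt_iff_forall_SL2Z hc]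
    intro γ _
    rw [slash_action_generators_SL2Z (thp_S y y' h) (thp_T y y' h)]
    exact isBoundedAtImInfty_of_hasSum_qExpansion one_pos (thp_hasSum y y' h)

theorem cfp_eq_zero (h : EU B) (m : ℕ) : cfp B y y' m = 0 := by
  have c : ∀ m, (qExpansion 1 (mfp y y' h)).coeff m = cfp B y y' m := fun m =>
    (ModularFormClass.qExpansion_coeff_unique one_pos one_mem_strictPeriods_SL (f := mfp y y' h)
      (thp_hasSum y y' h) m).symm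
  have h0 : (qExpansion 1 (mfp y y' h)).coeff 0 = 0 := by
    rw [c, cfp]
    convert tsum_zero with x
    have : x.1 = 0 := by
      by_contra hx
      have := h.pos _ hx
      rw [(half_eq h _ _).1 x.2] at this
      simp at this
    simp [hp, this]
  have h1 : CuspForm.discriminantEquiv (toCuspForm _ h0) = 0 :=
    rank_zero_iff_forall_zero.mp levelOne_weight_two_rank_zero _
  have h2 : mfp y y' h = 0 := by
    simpa [CuspForm.discriminantEquiv.map_eq_zero_iff, DFunLike.ext_iff] using h1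
  rw [← c, h2]
  simp [qExpansion_zero]

/-- An even unimodular lattice of rank `24` does not have exactly two roots. -/
theorem not_two_roots (h : EU B) {t l : Fin 24 → ℤ} (ht : ∀ x, x ⬝ᵥ (B *ᵥ x) = 2 ↔ x = t ∨ x = -t)
    (hl : l ≠ 0) (h0 : t ⬝ᵥ (B *ᵥ l) = 0) : False := by
  have h2 := (ht t).2 (Or.inl rfl)
  have hn : t ≠ -t := fun e => by
    have : t = 0 := funext fun i => by have := congrFun e i; simp at this ⊢; omega
    rw [this] at h2; simp at h2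
  have := cfp_eq_zero t l h 1
  rw [cfp, tsum_eq_sum (s := ({⟨t, (half_eq h _ _).2 h2⟩, ⟨-t, (half_eq h _ _).2 ((ht _).2 (Or.inr rfl))⟩} :
    Finset {x : Fin 24 → ℤ // (x ⬝ᵥ (B *ᵥ x) / 2).toNat = 1})) fun x hx => absurd ((ht x).1 ((half_eq h _ _).1 x.2)) (by simpa [Subtype.ext_iff] using hx),
    Finset.sum_pair (fun e => hn (congrArg Subtype.val e))] at this
  simp only [hp, neg_dotProduct, h0, h2] at this
  have e : (l ⬝ᵥ (B *ᵥ l)) * 8 = 0 := by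
    have : (((l ⬝ᵥ (B *ᵥ l)) * 8 : ℤ) : ℂ) = 0 := by rw [← this]; push_cast; ring
    exact_mod_cast this
  have := h.pos l hl
  omega

end CF.Feit
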