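import Cfsg.Agent.Feit.E
import Cfsg.Agent.Feit.F
import Cfsg.Agent.Leech.Co1

/-! Gluing to an even unimodular lattice of rank `24`; Feit's theorem in degree `23`. -/

set_option autoImplicit false
set_option linter.style.haveILetI false

namespace CF.Feit

open Module Matrix CF.Leech CF.Leech.Pois Cfsg

/-- An even unimodular lattice of rank `24`. -/
structure UL {Λ : Type*} [AddCommGroup Λ] (b : LinearMap.BilinForm ℤ Λ) : Prop where
  fr : finrank ℤ Λ = 24
  symm : ∀ y z, b y z = b z y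
  pos : ∀ y, y ≠ 0 → 0 < b y y
  even : ∀ y, (2 : ℤ) ∣ b y y
  uni : ∀ φ : Λ →ₗ[ℤ] ℤ, ∃ y, ∀ z, b y z = φ z

theorem det_pos24 {B : Matrix (Fin 24) (Fin 24) ℤ} (hs : B.IsSymm)
    (hp : ∀ x : Fin 24 → ℤ, x ≠ 0 → 0 < x ⬝ᵥ (B *ᵥ x)) : 0 ≤ B.det := by
  have h : (B.map (Int.castRingHom ℚ)).PosDef := by
    refine Matrix.PosDef.of_dotProduct_mulVec_pos ?_ fun y hy => ?_
    · show (B.map (Int.castRingHom ℚ)).conjTranspose = _
      rw [Matrix.conjTranspose_eq_transpose_of_trivial, ← Matrix.transpose_map, hs.eq]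
    · obtain ⟨⟨m, hm⟩, hm2⟩ := IsLocalization.exist_integer_multiples_of_finite (nonZeroDivisors ℤ) y
      choose x hx using hm2
      have hm0 : (m : ℚ) ≠ 0 := by exact_mod_cast nonZeroDivisors.ne_zero hm
      have hx' : ∀ i, y i = x i / m := fun i => by
        have := hx i
        simp only [eq_intCast, zsmul_eq_mul] at this
        rw [this]; field_simp
      have hx0 : x ≠ 0 := fun h0 => hy (funext fun i => by rw [hx', h0]; simp)
      have h1 : (0 : ℚ) < (x ⬝ᵥ (B *ᵥ x) : ℤ) := by exact_mod_cast hp x hx0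
      have : star y ⬝ᵥ (B.map (Int.castRingHom ℚ)) *ᵥ y = (x ⬝ᵥ (B *ᵥ x) : ℤ) / m ^ 2 := by
        simp only [dotProduct, Matrix.mulVec, Finset.mul_sum, Matrix.map_apply, eq_intCast, star_trivial, hx']
        push_cast
        simp only [Finset.sum_div, Finset.mul_sum]
        exact Finset.sum_congr rfl fun i _ => Finset.sum_congr rfl fun j _ => by field_simp
      rw [this]; positivity
  have hc : Continuous (qf (re24 B)) := by unfold qf; fun_prop
  have h0 : ∀ y, 0 ≤ qf (re24 B) y := fun y => by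
    have hd : DenseRange (Pi.map (fun _ : Fin 24 => ((↑) : ℚ → ℝ))) := DenseRange.piMap fun _ => Rat.denseRange_cast
    refine hd.induction_on y (isClosed_le continuous_const hc) fun q => ?_
    have h1 := h.posSemidef.dotProduct_mulVec_nonneg q
    have : qf (re24 B) (Pi.map (fun _ : Fin 24 => ((↑) : ℚ → ℝ)) q) =
        ((star q ⬝ᵥ (B.map (Int.castRingHom ℚ)) *ᵥ q : ℚ) : ℝ) := by
      simp only [qf, re24, dotProduct, Matrix.mulVec, Finset.mul_sum, mul_assoc, Matrix.map_apply, eq_intCast,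
        star_trivial, Pi.map_apply]
      push_cast
      rfl
    rw [this]; exact_mod_cast h1
  have hP : (re24 B).PosSemidef := by
    refine Matrix.PosSemidef.of_dotProduct_mulVec_nonneg ?_ fun y => ?_
    · show (B.map _).conjTranspose = _
      rw [Matrix.conjTranspose_eq_transpose_of_trivial, ← Matrix.transpose_map, hs.eq]; rfl
    · rw [star_trivial, ← qf_eq]; exact h0 y
  have := hP.det_nonneg
  rw [re24, ← RingHom.mapMatrix_apply, ← RingHom.map_det, eq_intCast] at this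
  exact_mod_cast this

theorem z_of_sq {a j k n : ℤ} (h : a * j ^ 2 + k ^ 2 ≤ n) (hn : n < a) (ha : 0 < a) : j = 0 := by
  by_contra h0
  have : 1 ≤ j ^ 2 := sq_pos_of_ne_zero h0
  nlinarith [sq_nonneg k]

namespace UL
variable {Λ : Type*} [AddCommGroup Λ] [Module.Free ℤ Λ] [Module.Finite ℤ Λ] {b : LinearMap.BilinForm ℤ Λ}
  (h : UL b)
include h

theorem exists_eu : ∃ (e : Λ ≃ₗ[ℤ] (Fin 24 → ℤ)) (B : Matrix (Fin 24) (Fin 24) ℤ), EU B ∧
    ∀ y z, b y z = e y ⬝ᵥ (B *ᵥ e z) := by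
  let c := Module.finBasisOfFinrankEq ℤ Λ h.fr
  let B : Matrix (Fin 24) (Fin 24) ℤ := Matrix.of fun i j => b (c i) (c j)
  have k : ∀ y z, b y z = c.equivFun y ⬝ᵥ (B *ᵥ c.equivFun z) := fun y z => by
    conv_lhs => rw [← c.sum_repr y, ← c.sum_repr z]
    simp only [map_sum, map_smul, LinearMap.sum_apply, LinearMap.smul_apply, smul_eq_mul, dotProduct, mulVec,
      B, of_apply, Basis.equivFun_apply, Finset.mul_sum]
    rw [Finset.sum_comm]
    exact Finset.sum_congr rfl fun i _ => Finset.sum_congr rfl fun j _ => by ring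
  have hs : B.IsSymm := Matrix.IsSymm.ext fun i j => h.symm _ _
  have hp : ∀ x : Fin 24 → ℤ, x ≠ 0 → 0 < x ⬝ᵥ (B *ᵥ x) := fun x hx => by
    obtain ⟨y, rfl⟩ := c.equivFun.surjective x
    rw [← k]; exact h.pos y fun e => hx (by rw [e, map_zero])
  refine ⟨c.equivFun, B, ⟨hs, hp, fun x => ?_, ?_⟩, k⟩
  · obtain ⟨y, rfl⟩ := c.equivFun.surjective x
    rw [← k]; exact h.even y
  · choose y hy using fun i => h.uni (c.coord i)
    have e : (Matrix.of fun i j => c.repr (y i) j) * B = 1 := by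
      ext i j
      have := hy i (c j)
      conv_lhs at this => rw [← c.sum_repr (y i)]
      simp only [map_sum, map_smul, LinearMap.sum_apply, LinearMap.smul_apply, smul_eq_mul] at this
      simp only [mul_apply, B, one_apply, of_apply, this]
      simp [Finsupp.single_apply, eq_comm]
    have := congrArg det e
    rw [det_mul, det_one] at this
    exact Int.eq_one_of_mul_eq_one_left (det_pos24 hs hp) this

theorem not_two {t l : Λ} (ht : ∀ x, b x x = 2 ↔ x = t ∨ x = -t) (hl : l ≠ 0) (h0 : b t l = 0) : False := by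
  obtain ⟨e, B, hB, k⟩ := h.exists_eu
  refine not_two_roots hB (t := e t) (l := e l) (fun x => ?_) (by simpa using hl) (by rw [← k, h0])
  obtain ⟨y, rfl⟩ := e.surjective x
  rw [← k, ht, ← map_neg, e.injective.eq_iff, e.injective.eq_iff]

theorem exists_leech (h2 : ∀ x, b x x ≠ 2) : ∃ f : Λ ≃+ LL, ∀ y, nm (f y) = 8 * b y y := by
  obtain ⟨e, B, hB, k⟩ := h.exists_eu
  obtain ⟨c1, c2, c3⟩ := hB.counts fun x => by
    obtain ⟨y, rfl⟩ := e.surjective x
    rw [← k]; exact h2 y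
  let E : ELat Λ := ⟨LinearMap.toAddMonoidHom'.comp b.toAddMonoidHom, h.symm, h.pos, h.even, h2⟩
  have hc : ∀ m : ℕ, {x | E.b x x = 2 * m}.ncard = cnt B m := fun m =>
    Set.ncard_congr (fun x _ => e x) (fun x hx => by rw [Set.mem_setOf_eq, ← k]; exact hx)
      (fun x y _ _ => fun e' => e.injective e') fun x hx => ⟨e.symm x, by
        rw [Set.mem_setOf_eq] at hx ⊢
        rw [← hx]; conv_rhs => rw [← e.apply_symm_apply x, ← k]
        rfl, by simp⟩
  have h8 : {x | E.b x x = 8}.ncard = 398034000 := (hc 4).trans c3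
  obtain ⟨x, hx⟩ := Set.nonempty_of_ncard_ne_zero (h8 ▸ by norm_num : {x | E.b x x = 8}.ncard ≠ 0)
  obtain ⟨f, hf, -⟩ := E.exists_iso h.fr ((hc 2).trans c1) ((hc 3).trans c2) h8 hx
  exact ⟨f, hf⟩

theorem exists_hom (h2 : ∀ x, b x x ≠ 2) {G : Type*} [Group G] (σ : G →* End ℤ Λ)
    (hσ : ∀ g y, b (σ g y) (σ g y) = b y y) {t : Λ} (ht : ∀ g, σ g t = t) :
    ∃ v : LL, nm v = 8 * b t t ∧ ∃ φ : G →* MulAction.stabilizer Co0 v, ∀ g, φ g = 1 → σ g = 1 := by
  obtain ⟨f, hf⟩ := h.exists_leech h2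
  choose c hc using fun g => exists_co (f.toAddMonoidHom.comp ((σ g).toAddMonoidHom.comp
    f.symm.toAddMonoidHom)) fun x => by
      show nm (f (σ g (f.symm x))) = _
      rw [hf, hσ, ← hf, f.apply_symm_apply]
  have hc' : ∀ g x, c g • x = f (σ g (f.symm x)) := hc
  refine ⟨f t, hf t, MonoidHom.mk' (fun g => ⟨c g, by
    rw [MulAction.mem_stabilizer_iff, hc', f.symm_apply_apply, ht]⟩) fun g k => Subtype.ext
      (co_ext' fun x => ?_), fun g e => LinearMap.ext fun y => f.injective ?_⟩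
  · show c (g * k) • x = (c g * c k) • x
    rw [mul_smul, hc', hc', hc', f.symm_apply_apply, map_mul, End.mul_apply]
  · have e1 : c g = 1 := congrArg Subtype.val e
    have := hc' g (f y)
    rw [e1, one_smul, f.symm_apply_apply] at this
    exact this.symm

end UL

theorem exists_rep {W : Type*} [AddCommGroup W] [Module ℚ W] [FiniteDimensional ℚ W]
    {b : LinearMap.BilinForm ℚ W} (hb : b.Nondegenerate) (M : Submodule ℤ W) [M.IsLattice ℚ]
    (φ : M →ₗ[ℤ] ℤ) : ∃ y, ∀ z : M, b y z = φ z := by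
  let c := Module.Free.chooseBasis ℤ M
  let Φ : W →ₗ[ℚ] ℚ := (c.extendOfIsLattice ℚ).constr ℚ fun i => (φ (c i) : ℚ)
  refine ⟨(b.toDual hb).symm Φ, fun z => ?_⟩
  rw [LinearMap.BilinForm.apply_toDual_symm_apply]
  have : (Φ.restrictScalars ℤ) ∘ₗ M.subtype = (Algebra.linearMap ℤ ℚ) ∘ₗ φ := c.ext fun i => by
    have := (c.extendOfIsLattice ℚ).constr_basis ℚ (fun i => (φ (c i) : ℚ)) i
    simpa [Φ] using this
  exact LinearMap.congr_fun this z

variable {G V : Type*} [Group G] [AddCommGroup V] [Module ℚ V]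

/-- The glued form. -/
def gb (β : LinearMap.BilinForm ℚ V) (D : ℕ) : LinearMap.BilinForm ℚ (V × ℚ) :=
  β.compl₁₂ (LinearMap.fst ℚ V ℚ) (LinearMap.fst ℚ V ℚ) +
    (1 / D : ℚ) • (LinearMap.mul ℚ ℚ).compl₁₂ (LinearMap.snd ℚ V ℚ) (LinearMap.snd ℚ V ℚ)

theorem gb_apply (β : LinearMap.BilinForm ℚ V) (D : ℕ) (p q : V × ℚ) :
    gb β D p q = β p.1 q.1 + p.2 * q.2 / D := by
  simp [gb]; ring

/-- The glued lattice. -/
def gl (L : Submodule ℤ V) (u : V) : Submodule ℤ (V × ℚ) where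
  carrier := {p | IZ p.2 ∧ p.1 - p.2 • u ∈ L}
  add_mem' := fun ⟨a, b⟩ ⟨c, d⟩ => ⟨a.add c, by
    convert L.add_mem b d using 1; simp only [Prod.fst_add, Prod.snd_add]; module⟩
  zero_mem' := ⟨⟨0, rfl⟩, by simp⟩
  smul_mem' := fun n p ⟨a, b⟩ => ⟨((IZ.int n).mul a).congr (by simp), by
    convert L.smul_mem n b using 1
    simp only [Prod.smul_fst, Prod.smul_snd, ← Int.cast_smul_eq_zsmul ℚ, smul_eq_mul]; module⟩

variable {ρ : G →* End ℚ V} {β : LinearMap.BilinForm ℚ V} {L : Submodule ℤ V} {x : G} {u : V} {D : ℕ}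

theorem mem_gl {p : V × ℚ} : p ∈ gl L u ↔ IZ p.2 ∧ p.1 - p.2 • u ∈ L := Iff.rfl

theorem gl_lattice [L.IsLattice ℚ] : (gl L u).IsLattice ℚ where
  fg := by
    refine (((Submodule.IsLattice.fg (A := ℚ) (M := L)).map ((LinearMap.inl ℚ V ℚ).restrictScalars ℤ)).sup
      (Submodule.fg_span_singleton ((u, 1) : V × ℚ))).of_le fun p ⟨⟨k, a⟩, b⟩ => ?_
    refine Submodule.mem_sup.2 ⟨_, ⟨_, b, rfl⟩, k • (u, 1), Submodule.smul_mem _ _
      (Submodule.mem_span_singleton_self _), ?_⟩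
    ext <;> simp [a, Int.cast_smul_eq_zsmul]
  span_eq_top := by
    refine eq_top_iff.2 fun p _ => ?_
    have h1 : ∀ y : V, ((y, 0) : V × ℚ) ∈ Submodule.span ℚ (gl L u : Set (V × ℚ)) := fun y => by
      have : y ∈ Submodule.span ℚ (L : Set V) := by rw [Submodule.IsLattice.span_eq_top]; trivial
      refine (Submodule.span_le (p := (Submodule.span ℚ (gl L u : Set (V × ℚ))).comap
        (LinearMap.inl ℚ V ℚ))).2 (fun z hz => Submodule.subset_span ⟨⟨0, rfl⟩, by simpa using hz⟩) this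
    have h2 : ((u, 1) : V × ℚ) ∈ Submodule.span ℚ (gl L u : Set (V × ℚ)) :=
      Submodule.subset_span ⟨⟨1, rfl⟩, by simp⟩
    convert Submodule.add_mem _ (h1 (p.1 - p.2 • u)) (Submodule.smul_mem _ p.2 h2) using 1
    ext <;> simp

namespace Ctx
variable (h : Ctx ρ β x L u D)
include h

theorem gb_symm (p q : V × ℚ) : gb β D p q = gb β D q p := by
  rw [gb_apply, gb_apply, h.rp.symm, mul_comm]

theorem gb_pos (p : V × ℚ) (hp : p ≠ 0) : 0 < gb β D p p := by
  rw [gb_apply]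
  have hD := h.Dq
  by_cases e : p.1 = 0
  · have : p.2 ≠ 0 := fun e' => hp (Prod.ext e e')
    have := mul_self_pos.2 this
    rw [e, map_zero, zero_add]; positivity
  · exact add_pos_of_pos_of_nonneg (h.rp.pos _ e) (div_nonneg (mul_self_nonneg _) hD.le)

theorem gl_du {p : V × ℚ} (hp : p ∈ gl L u) : Du β L p.1 := by
  obtain ⟨⟨k, a⟩, b⟩ := hp
  exact (h.dual _).2 ⟨k, a ▸ b⟩

theorem exists_ul (hD : D ∣ 12) : ∃ b : LinearMap.BilinForm ℤ (gl L u), UL b ∧
    ∀ p q, (b p q : ℚ) = gb β D p q := by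
  haveI := h.lt.lat
  haveI := h.rp.fd
  haveI : (gl L u).IsLattice ℚ := gl_lattice
  obtain ⟨E, hE⟩ := hD
  have hD := h.Dq
  have hE' : (12 : ℚ) / D = E := by
    rw [div_eq_iff hD.ne', mul_comm]; exact_mod_cast hE
  have ev : ∀ p ∈ gl L u, IZ (gb β D p p / 2) := fun p ⟨a, b⟩ =>
    (((h.lt.ev _ b).add (a.mul (h.du _ b))).add ((a.mul a).mul (IZ.nat E))).congr (by
      simp only [gb_apply, map_sub, map_smul, LinearMap.sub_apply, LinearMap.smul_apply, smul_eq_mul, h.nu,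
        h.rp.symm p.1 u, ← hE']
      ring)
  obtain ⟨b, hb⟩ := CF.Fong.Intg.exists_form (b := gb β D) (L := gl L u) fun p hp q hq =>
    (((ev _ ((gl L u).add_mem hp hq)).sub (ev _ hp)).sub (ev _ hq)).congr (by
      simp only [map_add, LinearMap.add_apply, h.gb_symm q p]; ring)
  refine ⟨b, ⟨?_, fun p q => Int.cast_injective (α := ℚ) (by rw [hb, hb, h.gb_symm]), fun p hp => ?_,
    fun p => ?_, fun φ => ?_⟩, hb⟩
  · rw [CF.Fong.finrank_lat, finrank_prod, h.rp.fr, finrank_self]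
  · have := h.gb_pos p fun e => hp (Subtype.ext e)
    rw [← hb] at this; exact_mod_cast this
  · obtain ⟨k, hk⟩ := ev p p.2
    exact ⟨k, Int.cast_injective (α := ℚ) (by rw [hb]; push_cast; linarith)⟩
  · have nd : ∀ p, gb β D p p = 0 → p = 0 := fun p e => by
      by_contra hp
      exact (h.gb_pos p hp).ne' e
    obtain ⟨p, hp⟩ := exists_rep (b := gb β D) ⟨fun y hy => nd y (hy y), fun y hy => nd y (hy y)⟩ (gl L u) φ
    have d : ∀ q ∈ gl L u, IZ (gb β D p q) := fun q hq => ⟨_, hp ⟨q, hq⟩⟩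
    obtain ⟨k, hk⟩ := (h.dual p.1).1 fun l hl => (d (l, 0) ⟨⟨0, rfl⟩, by simpa using hl⟩).congr (by
      simp [gb_apply])
    have c1 : IZ p.2 := (d (0, D) ⟨IZ.nat D, by simpa using (h.ord D).2 ⟨1, by simp [hD.ne']⟩⟩).congr (by
      simp [gb_apply, hD.ne'])
    have c2 := d (u, 1) ⟨⟨1, rfl⟩, by simp⟩
    have c3 : IZ ((k - p.2) / D) := ((((IZ.int k).mul (IZ.nat (2 * E))).add (h.bZ hk)).sub c2).congr (by
      simp only [gb_apply, map_sub, map_smul, LinearMap.sub_apply, LinearMap.smul_apply, smul_eq_mul, h.nu]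
      push_cast; rw [← hE']; ring)
    refine ⟨⟨p, c1, ?_⟩, fun q => Int.cast_injective (α := ℚ) (by rw [hb, hp])⟩
    convert L.add_mem hk ((h.ord _).2 c3) using 1
    module

variable (nr : ∀ r ∈ L, β r u = 0 → β r r ≠ 2)
include nr

theorem gl_root {p : V × ℚ} (hp : p ∈ gl L u) (h2 : gb β D p p = 2) : ∃ j k : ℤ, p.2 = k ∧
    (p.1 = (j : ℚ) • u ∧ 23 * j ^ 2 + k ^ 2 = 2 * D ∨ β p.1 u * D = j ∧ 23 * k ^ 2 + j ^ 2 ≤ 2 * D) := by
  have hd := h.gl_du hp
  obtain ⟨k, hk⟩ := hp.1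
  have hD := h.Dq
  rw [gb_apply, hk] at h2
  by_cases e : ρ x p.1 = p.1
  · have e1 := h.fix_eq e
    obtain ⟨j, hj⟩ := h.line (e1 ▸ hd)
    rw [hj] at e1
    refine ⟨j, k, hk, Or.inl ⟨e1, Int.cast_injective (α := ℚ) ?_⟩⟩
    rw [e1] at h2
    simp only [map_smul, LinearMap.smul_apply, smul_eq_mul, h.nu] at h2
    field_simp at h2
    push_cast; linarith
  · obtain ⟨j, hj⟩ := h.jZ hd
    have b := h.bound nr hd e
    refine ⟨j, k, hk, Or.inr ⟨by rw [mul_comm, hj], ?_⟩⟩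
    have e1 : 23 * β p.1 p.1 - D * β p.1 u ^ 2 = 46 - (23 * k ^ 2 + j ^ 2) / D := by
      rw [← hj, eq_sub_of_add_eq h2]; field_simp; ring
    rw [e1, le_sub_comm, div_le_iff₀ hD] at b
    have : (23 * k ^ 2 + j ^ 2 : ℚ) ≤ 2 * D := by linarith
    exact_mod_cast this

theorem case2' (hD : D = 2) : ∃ H : Subgroup G, H.index = 23 := by
  by_cases hr : ∃ r ∈ L, β r r = 2
  · obtain ⟨r, hr, h2⟩ := hr
    exact h.case2 nr hD hr h2
  exfalso
  push Not at hr
  haveI := h.lt.lat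
  haveI : (gl L u).IsLattice ℚ := gl_lattice
  obtain ⟨b, hb, e⟩ := h.exists_ul (by rw [hD]; norm_num)
  have m : (2 : ℚ) • u ∈ L := (h.ord 2).2 ⟨1, by simp [hD]⟩
  have mt : ((0, 2) : V × ℚ) ∈ gl L u := ⟨IZ.nat 2, by simpa using m⟩
  have ml : (((2 : ℚ) • u, 0) : V × ℚ) ∈ gl L u := ⟨⟨0, rfl⟩, by simpa using m⟩
  refine hb.not_two (t := ⟨_, mt⟩) (l := ⟨_, ml⟩) (fun p => ⟨fun h2 => ?_, fun k => ?_⟩)
    (fun e => h.u0 (by simpa using e)) (Int.cast_injective (α := ℚ) (by simp [e, gb_apply]))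
  · have h3 : gb β D p p = 2 := by rw [← e, h2]; rfl
    obtain ⟨j, k, a, ⟨c, d⟩ | ⟨-, d⟩⟩ := h.gl_root nr p.2 h3
    · rw [hD] at d
      have j0 : j = 0 := z_of_sq d.le (by norm_num) (by norm_num)
      rw [j0] at c d
      have : k = 2 ∨ k = -2 := sq_eq_sq_iff_eq_or_eq_neg.1 (by simpa using d)
      rcases this with rfl | rfl
      · exact Or.inl (Subtype.ext (Prod.ext (by simpa using c) (by simpa using a)))
      · exact Or.inr (Subtype.ext (Prod.ext (by simpa using c) (by simpa using a)))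
    · rw [hD] at d
      have k0 : k = 0 := z_of_sq d (by norm_num) (by norm_num)
      rw [k0, Int.cast_zero] at a
      refine absurd ?_ (hr p.1.1 (by simpa [a] using p.2.2))
      simpa [gb_apply, a] using h3
  · refine Int.cast_injective (α := ℚ) ?_
    rcases k with rfl | rfl <;> simp [e, gb_apply, hD]

theorem rootless (hD : D = 4 ∨ D = 6) {p : V × ℚ} (hp : p ∈ gl L u) : gb β D p p ≠ 2 := fun h3 => by
  obtain ⟨j, k, a, ⟨-, d⟩ | ⟨c, d⟩⟩ := h.gl_root nr hp h3
  · have j0 : j = 0 := z_of_sq d.le (by omega) (by norm_num)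
    rw [j0] at d
    have b0 : k ^ 2 ≤ 12 := by omega
    have b1 : k ≤ 3 := by nlinarith
    have b2 : -3 ≤ k := by nlinarith
    interval_cases k <;> omega
  · have k0 : k = 0 := z_of_sq d (by omega) (by norm_num)
    rw [k0, Int.cast_zero] at a
    have m : p.1 ∈ L := by simpa [a] using hp.2
    obtain ⟨n, hn⟩ := h.bZ m
    have e : j = n * D := Int.cast_injective (α := ℚ) (by rw [← c, hn]; push_cast; rfl)
    have n0 : n = 0 := by
      rw [e, k0] at d
      refine z_of_sq (a := 16) (k := 0) (n := 12) ?_ (by norm_num) (by norm_num)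
      rcases hD with rfl | rfl <;> push_cast at d <;> nlinarith [sq_nonneg n]
    exact nr _ m (by rw [hn, n0]; rfl) (by simpa [gb_apply, a] using h3)

omit nr in
theorem exists_eps (hD : D = 4 ∨ D = 6) : ∃ ε : G →* ℤˣ, ∀ g, ρ g u - ((ε g : ℤ) : ℚ) • u ∈ L := by
  have ex : ∀ g, ∃ e : ℤˣ, ρ g u - ((e : ℤ) : ℚ) • u ∈ L := fun g => by
    obtain ⟨k, hk⟩ := (h.dual _).1 (h.du.map h.rp h.lt g)
    have hq := h.Dq
    obtain ⟨n, hn⟩ : IZ (23 * (k ^ 2 - 1) / D) :=
      ((h.lt.du h.rp hk _ hk).add (((IZ.nat 2).mul (IZ.int k)).mul (h.bZ hk))).neg.congr (by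
        simp only [map_sub, map_smul, LinearMap.sub_apply, LinearMap.smul_apply, smul_eq_mul, h.nu, h.rp.inv,
          h.rp.symm u (ρ g u)]
        push_cast; ring)
    rw [div_eq_iff hq.ne'] at hn
    have e1 : 23 * (k ^ 2 - 1) = n * D := by exact_mod_cast hn
    obtain ⟨e, m, hm⟩ : ∃ e : ℤˣ, (D : ℤ) ∣ k - e := by
      have : k % D = 1 ∨ k % D = D - 1 := by
        have e2 : (k % D) ^ 2 % D = k ^ 2 % D := (Int.mod_modEq k D).pow 2
        generalize k ^ 2 = s at e1 e2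
        rcases hD with rfl | rfl
        · have b1 := Int.emod_nonneg k (show ((4 : ℕ) : ℤ) ≠ 0 by norm_num)
          have b2 := Int.emod_lt_of_pos k (show (0 : ℤ) < (4 : ℕ) by norm_num)
          generalize k % (4 : ℕ) = r at *
          push_cast at *
          interval_cases r <;> omega
        · have b1 := Int.emod_nonneg k (show ((6 : ℕ) : ℤ) ≠ 0 by norm_num)
          have b2 := Int.emod_lt_of_pos k (show (0 : ℤ) < (6 : ℕ) by norm_num)
          generalize k % (6 : ℕ) = r at *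
          push_cast at *
          interval_cases r <;> omega
      rcases this with e | e
      · exact ⟨1, by rcases hD with rfl | rfl <;> simp only [Units.val_one] <;> omega⟩
      · exact ⟨-1, by rcases hD with rfl | rfl <;> simp only [Units.val_neg, Units.val_one] <;> omega⟩
    have e2 : (k : ℚ) - (e : ℤ) = D * m := by exact_mod_cast hm
    refine ⟨e, ?_⟩
    convert L.add_mem hk ((h.ord (k - (e : ℤ))).2 ⟨m, by rw [e2]; field_simp⟩) using 1
    module
  have un : ∀ (y : V) (e e' : ℤˣ), y - ((e : ℤ) : ℚ) • u ∈ L → y - ((e' : ℤ) : ℚ) • u ∈ L → e = e' :=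
    fun y e e' a b => by
      have := L.sub_mem a b
      rw [sub_sub_sub_cancel_left, ← sub_smul, h.ord] at this
      obtain ⟨n, hn⟩ := this
      rw [div_eq_iff h.Dq.ne'] at hn
      have e1 : (e' : ℤ) - e = n * D := by exact_mod_cast hn
      rcases Int.units_eq_one_or e with rfl | rfl <;> rcases Int.units_eq_one_or e' with rfl | rfl <;>
        rcases hD with rfl | rfl <;> first | rfl | (simp only [Units.val_neg, Units.val_one] at e1; omega)
  choose ε hε using ex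
  refine ⟨MonoidHom.mk' ε fun g k => un _ _ _ (hε _) ?_, hε⟩
  convert L.add_mem (h.lt.inv g _ (hε k)) ((IZ.int (ε k)).smul (hε g)) using 1
  rw [map_mul, End.mul_apply, map_sub, map_smul]; push_cast; module

theorem case46 (hi : Function.Injective ρ) (hD : D = 4 ∨ D = 6) : ∃ v : LL, nm v = 8 * D ∧
    ∃ φ : G →* ℤˣ × MulAction.stabilizer Co0 v, Function.Injective φ := by
  haveI := h.lt.lat
  haveI : (gl L u).IsLattice ℚ := gl_lattice
  obtain ⟨b, hb, e⟩ := h.exists_ul (by rcases hD with rfl | rfl <;> norm_num)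
  obtain ⟨ε, hε⟩ := h.exists_eps hD
  have sq : ∀ g, ((ε g : ℤ) : ℚ) * (ε g : ℤ) = 1 := fun g => by
    rcases Int.units_eq_one_or (ε g) with e | e <;> simp [e]
  let τ : G →* End ℚ (V × ℚ) :=
    { toFun := fun g => (((ε g : ℤ) : ℚ) • ρ g).prodMap (LinearMap.id : ℚ →ₗ[ℚ] ℚ)
      map_one' := LinearMap.ext fun p => by simp
      map_mul' := fun g k => LinearMap.ext fun p => by simp [smul_smul, mul_comm] }
  have hτ : ∀ g p, τ g p = (((ε g : ℤ) : ℚ) • ρ g p.1, p.2) := fun g p => rfl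
  have inv : CF.Fong.Inv τ (gl L u) := fun g p ⟨a, c⟩ => ⟨a, by
    convert (IZ.int (ε g)).smul (L.add_mem (h.lt.inv g _ c) (a.smul (hε g))) using 1
    rw [hτ, map_sub, map_smul]
    linear_combination (norm := module) (p.2 * sq g) • u⟩
  have mt : ((0, D) : V × ℚ) ∈ gl L u := ⟨IZ.nat D, by simpa using (h.ord D).2 ⟨1, by simp [h.Dq.ne']⟩⟩
  obtain ⟨v, hv, φ, hφ⟩ := hb.exists_hom (fun p h2 => h.rootless nr hD p.2 (by rw [← e, h2]; rfl)) inv.act
    (fun g p => Int.cast_injective (α := ℚ) (by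
      rw [e, e, inv.act_coe, hτ, gb_apply, gb_apply]
      simp only [map_smul, LinearMap.smul_apply, smul_eq_mul, h.rp.inv, ← mul_assoc, sq, one_mul]))
    (t := ⟨_, mt⟩) fun g => Subtype.ext (by rw [inv.act_coe, hτ]; simp)
  refine ⟨v, hv.trans (congrArg _ (Int.cast_injective (α := ℚ) (by simp [e, gb_apply, h.Dq.ne']))),
    ε.prod φ, (injective_iff_map_eq_one _).2 fun g hg => hi (LinearMap.ext fun y => ?_)⟩
  have e1 : ε g = 1 := congrArg Prod.fst hg
  have e2 := LinearMap.congr_fun (inv.act_eq_one.1 (hφ g (congrArg Prod.snd hg))) (y, 0)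
  rw [hτ, e1] at e2
  simpa using e2

end Ctx

/-- The sign map. -/
def sgn2 : ℤˣ →* Multiplicative (ZMod 2) :=
  MonoidHom.mk' (fun e => if e = 1 then 1 else Multiplicative.ofAdd 1) (by decide)

theorem sgn2_inj : Function.Injective sgn2 := by decide

theorem feit [Finite G] (hi : Function.Injective ρ) (hr : finrank ℚ V = 23)
    (irr : ∀ W : Submodule ℚ V, (∀ g, ∀ w ∈ W, ρ g w ∈ W) → W = ⊥ ∨ W = ⊤)
    (hidx : ∀ H : Subgroup G, H.index ≠ 23 ∧ H.index ≠ 24) :
    (∃ f : G →* Multiplicative (ZMod 2) × Spor.Co2, Function.Injective f) ∨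
    (∃ f : G →* Multiplicative (ZMod 2) × Spor.Co3, Function.Injective f) := by
  obtain ⟨β, x, L, u, D, h⟩ := exists_ctx hi hr irr
  have nr : ∀ r ∈ L, β r u = 0 → β r r ≠ 2 := fun r hr h0 h2 => by
    obtain ⟨H, e | e⟩ := h.caseA hr h0 h2
    exacts [(hidx H).1 e, (hidx H).2 e]
  have h1 := h.D_le nr
  have h2 : D ≠ 2 := fun e => (h.case2' nr e).elim fun H => (hidx H).1
  have h3 : D ≠ 10 := h.case10 nr
  have h4 : D ≠ 12 := fun e => (h.case12 nr e).elim fun H => (hidx H).2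
  have hD : D = 4 ∨ D = 6 := by
    have := h.D0; have := h.ev; have := h.n8; omega
  obtain ⟨v, hv, φ, hφ⟩ := h.case46 nr hi hD
  rcases hD with rfl | rfl
  · obtain ⟨g, a⟩ := exists_smul_U hv
    let e := (St1Equiv g v).trans (a ▸ Co2Equiv)
    exact Or.inl ⟨(sgn2.prodMap e.toMonoidHom).comp φ, (sgn2_inj.prodMap e.injective).comp hφ⟩
  · obtain ⟨g, a⟩ := exists_smul_V hv
    let e := (St1Equiv g v).trans (a ▸ Co3Equiv)
    exact Or.inr ⟨(sgn2.prodMap e.toMonoidHom).comp φ, (sgn2_inj.prodMap e.injective).comp hφ⟩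

end CF.Feit
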